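import Mathlib

/-!
Two counting facts for finite groups.
-/

set_option autoImplicit false
set_option linter.style.haveILetI false

namespace Cfsg.Agent.MaxSub.OrthFour.HalfThree

variable {G : Type*} [Group G]

/-- A group acting on the cosets of a subgroup, fixing the trivial one and semiregular elsewhere. -/
theorem free_card (H : Subgroup G) [Finite (G ⧸ H)] {A : Type*} [Group A] (f : A →* G)
    (hA : ∀ a, f a ∈ H) (hfree : ∀ a, a ≠ 1 → ∀ g, g⁻¹ * f a * g ∈ H → g ∈ H) :
    Nat.card A ∣ H.index - 1 := by
  classical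
  have hfix : ∀ a, f a • ((1 : G) : G ⧸ H) = ((1 : G) : G ⧸ H) := fun a => by
    rw [MulAction.Quotient.smul_coe, smul_eq_mul, mul_one, QuotientGroup.eq, mul_one]
    exact H.inv_mem (hA a)
  let β := {p : G ⧸ H // p ≠ ((1 : G) : G ⧸ H)}
  letI : MulAction A β :=
    { smul := fun a p => ⟨f a • p.1, fun e => p.2 (smul_left_cancel (f a) (e.trans (hfix a).symm))⟩
      one_smul := fun p => Subtype.ext (show f 1 • p.1 = p.1 by rw [map_one, one_smul])
      mul_smul := fun a b p => Subtype.ext (show f (a * b) • p.1 = f a • f b • p.1 by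
        rw [map_mul, mul_smul]) }
  have hst : ∀ b : β, MulAction.stabilizer A b = ⊥ := by
    rintro ⟨p, hp⟩
    rw [eq_bot_iff]
    intro a ha
    by_contra hne
    obtain ⟨g, rfl⟩ := Quotient.exists_rep p
    have e : f a • (g : G ⧸ H) = (g : G ⧸ H) :=
      congrArg Subtype.val (MulAction.mem_stabilizer_iff.1 ha)
    rw [MulAction.Quotient.smul_coe, smul_eq_mul, QuotientGroup.eq] at e
    have hg : g ∈ H := hfree a (by simpa using hne) g (by
      have := H.inv_mem e
      rw [show g⁻¹ * f a * g = ((f a * g)⁻¹ * g)⁻¹ by group]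
      exact this)
    exact hp (QuotientGroup.eq.2 (by simpa using H.inv_mem hg))
  have hc : Nat.card β + 1 = H.index := by
    rw [Subgroup.index_eq_card, ← Nat.card_congr (Equiv.optionSubtypeNe ((1 : G) : G ⧸ H)),
      Finite.card_option]
  rw [← hc, Nat.add_sub_cancel]
  rw [Nat.card_congr (MulAction.selfEquivOrbitsQuotientProd hst), Nat.card_prod]
  exact dvd_mul_left _ _

/-- Adjoining a normalising element whose square is present doubles the order. -/
theorem double (N : Subgroup G) {a : G} (hn : ∀ n ∈ N, a * n * a⁻¹ ∈ N) (h2 : a * a = 1)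
    (ha : a ∉ N) :
    ∃ N' : Subgroup G, (∀ g, g ∈ N' ↔ g ∈ N ∨ g * a ∈ N) ∧ Nat.card N' = Nat.card N * 2 := by
  have hi : a⁻¹ = a := inv_eq_of_mul_eq_one_right h2
  have sw : ∀ n ∈ N, a * n * a ∈ N := fun n hn' => by simpa [hi] using hn n hn'
  have ca : ∀ x : G, x * a * a = x := fun x => by rw [mul_assoc, h2, mul_one]
  let N' : Subgroup G :=
    { carrier := {g | g ∈ N ∨ g * a ∈ N}
      one_mem' := Or.inl N.one_mem
      mul_mem' := by
        rintro x y (hx | hx) (hy | hy)
        · exact Or.inl (N.mul_mem hx hy)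
        · exact Or.inr (by rw [mul_assoc]; exact N.mul_mem hx hy)
        · refine Or.inr ?_
          have := N.mul_mem hx (sw y hy)
          rwa [show x * a * (a * y * a) = x * a * a * (y * a) by group, ca, ← mul_assoc] at this
        · refine Or.inl ?_
          have := N.mul_mem hx (sw _ hy)
          rwa [show x * a * (a * (y * a) * a) = x * a * a * (y * a * a) by group, ca, ca] at this
      inv_mem' := by
        rintro x (hx | hx)
        · exact Or.inl (N.inv_mem hx)
        · refine Or.inr ?_
          have := sw _ (N.inv_mem hx)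
          rwa [mul_inv_rev, hi, show a * (a * x⁻¹) * a = a * a * (x⁻¹ * a) by group, h2, one_mul] at this }
  refine ⟨N', fun g => Iff.rfl, ?_⟩
  have hle : N ≤ N' := fun g hg => Or.inl hg
  have hidx : (N.subgroupOf N').index = 2 := by
    rw [Subgroup.index_eq_two_iff]
    refine ⟨⟨a, Or.inr (by rw [h2]; exact N.one_mem)⟩, fun b => ?_⟩
    simp only [Subgroup.mem_subgroupOf, Subgroup.coe_mul]
    rcases b.2 with hb | hb
    · exact Or.inr ⟨hb, fun hba => ha (by simpa using N.mul_mem (N.inv_mem hb) hba)⟩
    · exact Or.inl ⟨hb, fun hba => ha (by simpa using N.mul_mem (N.inv_mem hba) hb)⟩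
  have := Subgroup.card_mul_index (N.subgroupOf N')
  rw [hidx, Nat.card_congr (Subgroup.subgroupOfEquivOfLe hle).toEquiv] at this
  exact this.symm

end Cfsg.Agent.MaxSub.OrthFour.HalfThree
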