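import Cfsg.Agent.MaxSub.OrthFour.HalfThree.Kit
import Cfsg.Agent.MaxSub.OrthFour.Omega
import Cfsg.Agent.MaxSub.OrthWreathBig.Sites

/-!
Members of the monomial group given by two isometries of one site, and the passage from a half turn
to the normal position.
-/

set_option autoImplicit false
set_option linter.unusedSectionVars false
set_option linter.unusedVariables false
set_option linter.unusedSimpArgs false
set_option linter.unnecessarySeqFocus false

namespace Cfsg.Agent.MaxSub.OrthFour.HalfThree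

open Matrix Cfsg.Geo Cfsg.Agent.NotMax Cfsg.Agent.GeoClasses
open Cfsg.Agent.MaxSub.TensorPowSp (gV)
open Cfsg.Agent.MaxSub.OrthWreathBig (gB cr sieM cr_mulVec cr_mul)
open scoped MatrixGroups Matrix

variable {F : Type*} [Field F] {δ : F}

lemma iso_one : IsoW δ (1 : M4 F) := by simp [IsoW]

lemma iso_mul {A B : M4 F} (hA : IsoW δ A) (hB : IsoW δ B) : IsoW δ (A * B) := by
  unfold IsoW at *
  rw [transpose_mul, show Bᵀ * Aᵀ * G4 δ * (A * B) = Bᵀ * (Aᵀ * G4 δ * A) * B by noncomm_ring, hA, hB]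

lemma iso_neg {A : M4 F} (hA : IsoW δ A) : IsoW δ (-A) := by
  unfold IsoW at *
  rw [transpose_neg, neg_mul, neg_mul, mul_neg, neg_neg, hA]

lemma iso_diag (hd : ∀ v : F, v ≠ 0 → v * v = 1) (v : Fin 4 → F) (hv : ∀ i, v i ≠ 0) :
    IsoW δ (Matrix.diagonal v) := by
  unfold IsoW
  rw [diagonal_transpose, G4, diagonal_mul_diagonal, diagonal_mul_diagonal]
  congr 1; funext i
  linear_combination wt δ i * hd _ (hv i)

/-- An isometry of one site as an invertible matrix. -/
noncomputable def unitW (hd : ¬ IsSquare δ) {A : M4 F} (hA : IsoW δ A) : GL (Fin 4) F :=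
  Matrix.GeneralLinearGroup.mkOfDetNeZero A (hA.sim.det_ne hd)

lemma unitW_val (hd : ¬ IsSquare δ) {A : M4 F} (hA : IsoW δ A) : (unitW hd hA : M4 F) = A := rfl

/-- Two isometries as a member of the monomial group. -/
noncomputable def pairGL (hd : ¬ IsSquare δ) {A B : M4 F} (hA : IsoW δ A) (hB : IsoW δ B) : GV F 2 :=
  glPure ![unitW hd hA, unitW hd hB]

lemma pairGL_val (hd : ¬ IsSquare δ) {A B : M4 F} (hA : IsoW δ A) (hB : IsoW δ B) :
    (pairGL hd hA hB : MV F 2) = site 0 A * site 1 B := by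
  rw [site, site, pureMat_mul]
  change pureMat (fun i => ((![unitW hd hA, unitW hd hB] i : GL (Fin 4) F) : M4 F)) = _
  congr 1
  funext i
  fin_cases i <;> simp [unitW_val]

lemma pairGL_mem_Wr (hd : ¬ IsSquare δ) {A B : M4 F} (hA : IsoW δ A) (hB : IsoW δ B) :
    pairGL hd hA hB ∈ Wr F 2 :=
  Subgroup.subset_closure (Or.inl ⟨_, fun _ _ => rfl⟩)

variable [Finite F] {M : Subgroup (GV F 2)}

lemma pairGL_mem (h : Over δ M) {A B : M4 F} (hA : IsoW δ A) (hB : IsoW δ B) (e : A.det = B.det) :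
    pairGL h.nsq hA hB ∈ M ⊓ Wr F 2 :=
  ⟨h.mem (pairGL_mem_Wr h.nsq hA hB) ((pair_mem_Om_iff h.two h.nsq hA hB (pairGL_val _ hA hB)).2 e),
    pairGL_mem_Wr h.nsq hA hB⟩

/-- The exchange of the sites times a reflection. -/
noncomputable def swapGL (hd : ¬ IsSquare δ) {R : M4 F} (hR : IsoW δ R) : GV F 2 :=
  glFactorPerm 4 (Equiv.swap 0 1) * pairGL hd hR iso_one

lemma swapGL_val (hd : ¬ IsSquare δ) {R : M4 F} (hR : IsoW δ R) :
    (swapGL hd hR : MV F 2) = factorPerm 4 (Equiv.swap 0 1) * site 0 R := by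
  rw [swapGL, Units.val_mul, pairGL_val, site_one, mul_one]
  rfl

/-! ### Reflections -/

lemma refl_iso' (h2 : (2 : F) ≠ 0) {r : Fin 4 → F} (hr : gB (G4 δ) r r ≠ 0) :
    IsoW δ (reflW δ r) ∧ reflW δ r * reflW δ r = 1 := by
  have sq : reflW δ r * reflW δ r = 1 := by
    simp only [reflW, sub_mul, mul_sub, one_mul, mul_one, smul_mul_assoc, mul_smul_comm, smul_smul,
      cr_mul]
    match_scalars <;> field_simp <;> ring
  refine ⟨?_, sq⟩
  show (reflW δ r)ᵀ * G4 δ * reflW δ r = G4 δ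
  have ct : (cr (G4 δ) r r)ᵀ * G4 δ = G4 δ * cr (G4 δ) r r := by
    ext i j
    simp only [cr, G4, Matrix.mul_diagonal, Matrix.diagonal_mul, Matrix.transpose_apply,
      Matrix.vecMulVec_apply, Matrix.vecMul_diagonal]
    ring
  have e : (reflW δ r)ᵀ * G4 δ = G4 δ * reflW δ r := by
    simp only [reflW, transpose_sub, transpose_one, transpose_smul, sub_mul, mul_sub, one_mul,
      mul_one, smul_mul_assoc, mul_smul_comm, ct]
  rw [e, mul_assoc, sq, mul_one]

lemma refl_pair {r s : Fin 4 → F} (hrs : gB (G4 δ) r s = 0) :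
    reflW δ r * reflW δ s = 1 - (2 / gB (G4 δ) r r) • cr (G4 δ) r r -
      (2 / gB (G4 δ) s s) • cr (G4 δ) s s := by
  simp only [reflW, sub_mul, mul_sub, one_mul, mul_one, smul_mul_assoc, mul_smul_comm, smul_smul,
    cr_mul, hrs, zero_smul, smul_zero, mul_zero]
  abel

lemma refl_comm {r s : Fin 4 → F} (hrs : gB (G4 δ) r s = 0) :
    reflW δ r * reflW δ s = reflW δ s * reflW δ r := by
  rw [refl_pair hrs, refl_pair (by rw [gB_symm, hrs])]
  abel

lemma iso_mul_cr {C : M4 F} (hC : IsoW δ C) (r : Fin 4 → F) :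
    C * cr (G4 δ) r r = cr (G4 δ) (C *ᵥ r) (C *ᵥ r) * C := by
  rw [cr, cr, mul_vecMulVec, vecMulVec_mul, ← vecMul_transpose C r, vecMul_vecMul, vecMul_vecMul,
    show Cᵀ * (G4 δ * C) = G4 δ by rw [← mul_assoc]; exact hC]

lemma iso_mul_refl {C : M4 F} (hC : IsoW δ C) (r : Fin 4 → F) :
    C * reflW δ r = reflW δ (C *ᵥ r) * C := by
  rw [reflW, reflW, mul_sub, sub_mul, mul_one, one_mul, mul_smul_comm, smul_mul_assoc, iso_mul_cr hC,
    hC.gB_eq]

lemma refl_neg (r : Fin 4 → F) : reflW δ (-r) = reflW δ r := by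
  simp [reflW, cr, Matrix.neg_vecMul, neg_vecMulVec, vecMulVec_neg]

lemma refl_sub_apply (h2 : (2 : F) ≠ 0) {r e : Fin 4 → F}
    (hre : gB (G4 δ) r r = gB (G4 δ) e e) (hn : gB (G4 δ) (r - e) (r - e) ≠ 0) :
    reflW δ (r - e) *ᵥ r = e := by
  have hq : gB (G4 δ) (r - e) (r - e) = 2 * gB (G4 δ) (r - e) r := by
    simp only [map_sub, LinearMap.sub_apply, gB_symm δ e r, ← hre]; ring
  rw [reflW_mulVec, ← hq, inv_mul_cancel₀ hn, one_smul, sub_sub_cancel]

/-- One reflection carries a vector to plus or minus another one of the same norm. -/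
lemma exists_refl_map (h2 : (2 : F) ≠ 0) {r e : Fin 4 → F} (hr : gB (G4 δ) r r ≠ 0)
    (hre : gB (G4 δ) r r = gB (G4 δ) e e) :
    ∃ v, (v = r - e ∨ v = r + e) ∧ gB (G4 δ) v v ≠ 0 ∧
      (reflW δ v *ᵥ r = e ∨ reflW δ v *ᵥ r = -e) := by
  by_cases hn : gB (G4 δ) (r - e) (r - e) = 0
  · refine ⟨r + e, Or.inr rfl, ?_, Or.inr ?_⟩
    · intro hp
      apply hr
      simp only [map_sub, map_add, LinearMap.sub_apply, LinearMap.add_apply, gB_symm δ e r, ← hre]
        at hn hp
      have : (2 * 2 : F) * gB (G4 δ) r r = 0 := by linear_combination hn + hp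
      exact (mul_eq_zero.1 this).resolve_left (mul_ne_zero h2 h2)
    · have hp : gB (G4 δ) (r + e) (r + e) ≠ 0 := by
        intro hp
        apply hr
        simp only [map_sub, map_add, LinearMap.sub_apply, LinearMap.add_apply, gB_symm δ e r, ← hre]
          at hn hp
        have : (2 * 2 : F) * gB (G4 δ) r r = 0 := by linear_combination hn + hp
        exact (mul_eq_zero.1 this).resolve_left (mul_ne_zero h2 h2)
      have := refl_sub_apply (δ := δ) h2 (r := r) (e := -e) (by simp [hre]) (by rwa [sub_neg_eq_add])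
      rwa [sub_neg_eq_add] at this
  · exact ⟨r - e, Or.inl rfl, hn, Or.inl (refl_sub_apply h2 hre hn)⟩

/-- An isometry carrying an orthogonal pair to another one, up to signs. -/
lemma exists_iso_map (h2 : (2 : F) ≠ 0) {r s e f : Fin 4 → F} (hr : gB (G4 δ) r r ≠ 0)
    (hs : gB (G4 δ) s s ≠ 0) (hrs : gB (G4 δ) r s = 0) (hef : gB (G4 δ) e f = 0)
    (hre : gB (G4 δ) r r = gB (G4 δ) e e) (hsf : gB (G4 δ) s s = gB (G4 δ) f f) :
    ∃ C, IsoW δ C ∧ (C *ᵥ r = e ∨ C *ᵥ r = -e) ∧ (C *ᵥ s = f ∨ C *ᵥ s = -f) := by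
  obtain ⟨v, -, hv, hvr⟩ := exists_refl_map h2 hr hre
  set s' := reflW δ v *ᵥ s with hs'
  have hes : gB (G4 δ) e s' = 0 := by
    have := (refl_iso' h2 hv).1.gB_eq r s
    rcases hvr with e' | e' <;> rw [e', ← hs', hrs] at this <;>
      simpa using this
  have hss : gB (G4 δ) s' s' = gB (G4 δ) s s := (refl_iso' h2 hv).1.gB_eq s s
  obtain ⟨w, hw, hwn, hws⟩ := exists_refl_map h2 (r := s') (e := f) (by rwa [hss]) (hss.trans hsf)
  have hew : gB (G4 δ) w e = 0 := by
    rcases hw with rfl | rfl <;>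
      simp [gB_symm δ s' e, gB_symm δ f e, hes, hef]
  have fix : reflW δ w *ᵥ e = e := by
    rw [reflW_mulVec, hew]; simp
  refine ⟨reflW δ w * reflW δ v, iso_mul (refl_iso' h2 hwn).1 (refl_iso' h2 hv).1, ?_, ?_⟩
  · rw [← mulVec_mulVec]
    rcases hvr with e' | e' <;> rw [e'] <;> simp [fix, mulVec_neg]
  · rwa [← mulVec_mulVec, ← hs']

/-! ### The normal position -/

/-- The half turn in normal position, or its negative. -/
def Sgn (X : M4 F) : Prop := X = D4 ∨ X = -D4

lemma single_gB (δ : F) (i j : Fin 4) :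
    gB (G4 δ) (Pi.single i 1) (Pi.single j 1) = if i = j then wt δ i else 0 := by
  rw [gB_sum]
  by_cases h : i = j
  · subst h; simp [Pi.single_apply]
  · rw [if_neg h]
    exact Finset.sum_eq_zero fun p _ => by
      by_cases hp : p = i
      · subst hp; simp [h]
      · simp [hp]

lemma refl_single (h3 : Three F) (hd : ¬ IsSquare δ) (i : Fin 4) :
    reflW δ (Pi.single i 1) = Matrix.diagonal (fun j => if j = i then -1 else 1) := by
  have hw := wt_ne_zero hd i
  ext a b
  rw [reflW, single_gB, if_pos rfl, Matrix.sub_apply, Matrix.smul_apply, smul_eq_mul]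
  simp only [cr, G4, Matrix.vecMulVec_apply, Matrix.vecMul_diagonal, Matrix.one_apply,
    Matrix.diagonal_apply, Pi.single_apply]
  by_cases hab : a = b
  · subst hab
    by_cases hai : a = i
    · subst hai; simp; field_simp; ring
    · simp [hai]
  · by_cases hai : a = i
    · subst hai
      simp [hab, Ne.symm hab]
    · simp [hab, hai]

lemma D4_refl (h3 : Three F) (hd : ¬ IsSquare δ) :
    (D4 : M4 F) = reflW δ (Pi.single 0 1) * reflW δ (Pi.single 1 1) ∧
      (-D4 : M4 F) = reflW δ (Pi.single 2 1) * reflW δ (Pi.single 3 1) := by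
  simp only [refl_single h3 hd, diagonal_mul_diagonal, D4, diagonal_neg]
  constructor <;> congr 1 <;> funext i <;> fin_cases i <;> simp

/-- A half turn of one site is isometric to the normal one or its negative. -/
lemma exists_sgn (h3 : Three F) (hd : ¬ IsSquare δ) {r s : Fin 4 → F}
    (hr : gB (G4 δ) r r ≠ 0) (hs : gB (G4 δ) s s ≠ 0) (hrs : gB (G4 δ) r s = 0) :
    ∃ C X, IsoW δ C ∧ Sgn X ∧ C * (reflW δ r * reflW δ s) = X * C := by
  have h2 := h3.two_ne
  obtain ⟨d1, d2⟩ := D4_refl h3 hd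
  have n0 : gB (G4 δ) (Pi.single 0 1 : Fin 4 → F) (Pi.single 0 1) = -1 := by
    simp [single_gB, wt, h3.delta hd]
  have n : ∀ i : Fin 4, i ≠ 0 → gB (G4 δ) (Pi.single i 1 : Fin 4 → F) (Pi.single i 1) = 1 := by
    intro i hi; rw [single_gB, if_pos rfl]; fin_cases i <;> simp_all [wt]
  have key : ∀ r s e f : Fin 4 → F, gB (G4 δ) r r ≠ 0 → gB (G4 δ) s s ≠ 0 → gB (G4 δ) r s = 0 →
      gB (G4 δ) e f = 0 → gB (G4 δ) r r = gB (G4 δ) e e → gB (G4 δ) s s = gB (G4 δ) f f →
      ∃ C, IsoW δ C ∧ C * (reflW δ r * reflW δ s) = (reflW δ e * reflW δ f) * C := by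
    intro r s e f a b c d a' b'
    obtain ⟨C, hC, hCr, hCs⟩ := exists_iso_map h2 a b c d a' b'
    refine ⟨C, hC, ?_⟩
    rw [← mul_assoc, iso_mul_refl hC, mul_assoc, iso_mul_refl hC, ← mul_assoc]
    rcases hCr with e1 | e1 <;> rcases hCs with e2 | e2 <;> simp [e1, e2, refl_neg]
  have nval : ∀ x : F, x ≠ 0 → x = 1 ∨ x = -1 := fun x hx => (h3.cases x).resolve_left hx
  rcases nval _ hr with a | a <;> rcases nval _ hs with b | b
  · obtain ⟨C, hC, e⟩ := key r s (Pi.single 2 1) (Pi.single 3 1) hr hs hrs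
      (by simp [single_gB]) (by rw [a, n 2 (by decide)]) (by rw [b, n 3 (by decide)])
    exact ⟨C, _, hC, Or.inr rfl, by rw [e, d2]⟩
  · obtain ⟨C, hC, e⟩ := key s r (Pi.single 0 1) (Pi.single 1 1) hs hr (by rw [gB_symm, hrs])
      (by simp [single_gB]) (by rw [b, n0]) (by rw [a, n 1 (by decide)])
    exact ⟨C, _, hC, Or.inl rfl, by rw [refl_comm hrs, e, d1]⟩
  · obtain ⟨C, hC, e⟩ := key r s (Pi.single 0 1) (Pi.single 1 1) hr hs hrs
      (by simp [single_gB]) (by rw [a, n0]) (by rw [b, n 1 (by decide)])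
    exact ⟨C, _, hC, Or.inl rfl, by rw [e, d1]⟩
  · -- replace the pair by the sum and the difference
    have hsr : gB (G4 δ) s r = 0 := by rw [gB_symm, hrs]
    have np : gB (G4 δ) (r + s) (r + s) = 1 := by
      simp only [map_add, LinearMap.add_apply, hrs, hsr, a, b]; linear_combination -h3.charThree
    have nm : gB (G4 δ) (r - s) (r - s) = 1 := by
      simp only [map_sub, LinearMap.sub_apply, hrs, hsr, a, b]; linear_combination -h3.charThree
    have om : gB (G4 δ) (r + s) (r - s) = 0 := by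
      simp only [map_sub, map_add, LinearMap.add_apply, hrs, hsr, a, b]; ring
    have same : reflW δ r * reflW δ s = reflW δ (r + s) * reflW δ (r - s) := by
      rw [refl_pair hrs, refl_pair om, a, b, np, nm]
      simp only [sub_eq_add_neg, OrthWreathBig.cr_add_left, OrthWreathBig.cr_add_right,
        ← neg_one_smul F s, OrthWreathBig.cr_smul_left, OrthWreathBig.cr_smul_right]
      match_scalars <;> simp <;> linear_combination (2 : F) * h3.charThree
    obtain ⟨C, hC, e⟩ := key (r + s) (r - s) (Pi.single 2 1) (Pi.single 3 1) (by rw [np]; exact one_ne_zero)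
      (by rw [nm]; exact one_ne_zero) om
      (by simp [single_gB]) (by rw [np, n 2 (by decide)]) (by rw [nm, n 3 (by decide)])
    exact ⟨C, _, hC, Or.inr rfl, by rw [same, e, d2]⟩

/-- A half turn is carried to the normal one, up to sign, inside the monomial part of the group. -/
lemma exists_conj (h3 : Three F) (h : Over δ M) {x : MV F 2} (hx : IsHalf δ x) :
    ∃ g ∈ M ⊓ Wr F 2, ∃ ε : F, (ε = 1 ∨ ε = -1) ∧ (g : MV F 2) * x = ε • jM F * (g : MV F 2) := by
  obtain ⟨i, r, s, hr, hs, hrs, rfl⟩ := hx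
  have h2 := h.two
  -- to the second site
  have step1 : ∀ r s : Fin 4 → F, gB (G4 δ) r r ≠ 0 → gB (G4 δ) s s ≠ 0 → gB (G4 δ) r s = 0 →
      ∃ g ∈ M ⊓ Wr F 2, ∃ ε : F, (ε = 1 ∨ ε = -1) ∧
        (g : MV F 2) * site 1 (reflW δ r * reflW δ s) = ε • jM F * (g : MV F 2) := by
    intro r s hr hs hrs
    obtain ⟨C, X, hC, hX, e⟩ := exists_sgn h3 h.nsq hr hs hrs
    refine ⟨_, pairGL_mem h hC hC rfl, ?_⟩
    have eq : (pairGL h.nsq hC hC : MV F 2) * site 1 (reflW δ r * reflW δ s) =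
        (site 1 X : MV F 2) * (pairGL h.nsq hC hC : MV F 2) := by
      rw [pairGL_val, mul_assoc, site_mul, e, ← site_mul, ← mul_assoc,
        site_comm (show (0 : Fin 2) ≠ 1 by decide), mul_assoc]
    rcases hX with rfl | rfl
    · exact ⟨1, Or.inl rfl, by rw [eq, one_smul, jM]⟩
    · exact ⟨-1, Or.inr rfl, by rw [eq, neg_one_smul, OrthWreathBig.site_neg, jM]⟩
  have hi : i = 0 ∨ i = 1 := by omega
  rcases hi with rfl | rfl
  · obtain ⟨g, hg, ε, hε, e⟩ := step1 r s hr hs hrs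
    obtain ⟨hR, hR2⟩ := refl_iso' h2 hr
    have hsw : swapGL h.nsq hR ∈ M ⊓ Wr F 2 := by
      have hw : swapGL h.nsq hR ∈ Wr F 2 :=
        mul_mem (Subgroup.subset_closure (Or.inr ⟨_, fun _ _ => rfl⟩)) (pairGL_mem_Wr h.nsq hR iso_one)
      refine ⟨h.mem hw ?_, hw⟩
      have h4 := (Ev.swap (F := F) (δ := δ) h2 h.nsq (show (0 : Fin 2) ≠ 1 by decide)).mul
        (Ev.site_refl h2 h.nsq le_rfl 0 hr)
      rw [← swapGL_val h.nsq hR] at h4
      exact (h4.mem_iff h2 h.nsq).2 (by decide)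
    refine ⟨g * swapGL h.nsq hR, mul_mem hg hsw, ε, hε, ?_⟩
    have sc : ∀ X : M4 F, (site (1 : Fin 2) X) * factorPerm 4 (Equiv.swap 0 1) =
        factorPerm 4 (Equiv.swap 0 1) * site (0 : Fin 2) X := by
      intro X
      rw [site, pureMat_mul_factorPerm]
      congr 2
      funext l
      fin_cases l <;> simp
    have mid : (swapGL h.nsq hR : MV F 2) * site 0 (reflW δ r * reflW δ s) =
        (site 1 (reflW δ r * reflW δ s) : MV F 2) * (swapGL h.nsq hR : MV F 2) := by
      rw [swapGL_val, ← mul_assoc (site (1 : Fin 2) (reflW δ r * reflW δ s)), sc, mul_assoc,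
        mul_assoc, site_mul, site_mul, ← mul_assoc (reflW δ r), hR2, one_mul,
        refl_comm hrs, mul_assoc, hR2, mul_one]
    rw [Units.val_mul, mul_assoc, mid, ← mul_assoc, e, mul_assoc]
  · exact step1 r s hr hs hrs

end Cfsg.Agent.MaxSub.OrthFour.HalfThree
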