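import Cfsg.Agent.MaxSub.OrthFour.HalfThree.Kit
import Cfsg.Agent.Classical.UGroup
import Mathlib.FieldTheory.Finite.GaloisField

/-!
The centraliser of a half turn and a quarter turn embeds, up to the half turn, in a unitary group of
degree four: a bound on its order.
-/

set_option autoImplicit false
set_option linter.unusedSectionVars false

namespace Cfsg.Agent.MaxSub.OrthFour.HalfThree

open Matrix Cfsg.Agent.NotMax Cfsg.Agent.GeoClasses
open Cfsg.Agent.MaxSub.TensorPowSp (gV)
open scoped MatrixGroups Matrix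

variable {F : Type*} [Field F] {δ : F}

lemma wt_low (δ : F) {b : Fin 4} (hb : 2 ≤ b) : wt δ b = 1 := by
  fin_cases b <;> simp_all [wt]

lemma gV_pair (δ : F) (a b a' b' : Fin 4) :
    gV (G4 δ) 2 ![a, b] ![a', b'] = if a = a' ∧ b = b' then wt δ a * wt δ b else 0 := by
  rw [gV_diag, Matrix.diagonal_apply]
  by_cases h : a = a' ∧ b = b'
  · obtain ⟨rfl, rfl⟩ := h; simp [Fin.prod_univ_two]
  · rw [if_neg h, if_neg]
    intro e; exact h ⟨congrFun e 0, congrFun e 1⟩

/-- The Gram identities of the upper block. -/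
lemma gram (h3 : Three F) {g : MV F 2} (hiso : IsoV δ g) (hj : g * jM F = jM F * g)
    (hr : g * rM F = rM F * g) (a a' : Fin 4) :
    (∑ c, wt δ c * (g ![c, 2] ![a, 2] * g ![c, 2] ![a', 2] + g ![c, 3] ![a, 2] * g ![c, 3] ![a', 2]) =
      if a = a' then wt δ a else 0) ∧
    ∑ c, wt δ c * (g ![c, 3] ![a, 2] * g ![c, 2] ![a', 2] - g ![c, 2] ![a, 2] * g ![c, 3] ![a', 2]) =
      0 := by
  have key : ∀ b b' : Fin 4, 2 ≤ b → 2 ≤ b' →
      ∑ c, wt δ c * (g ![c, 2] ![a, b] * g ![c, 2] ![a', b'] + g ![c, 3] ![a, b] * g ![c, 3] ![a', b']) =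
        if a = a' ∧ b = b' then wt δ a else 0 := by
    intro b b' hb hb'
    have e := congrFun (congrFun hiso ![a, b]) ![a', b']
    rw [gV_pair δ a b a' b', wt_low δ hb, mul_one] at e
    rw [← e, gV_diag, mul_assoc, Matrix.mul_apply, sum_pair]
    conv_rhs => rw [Fin.sum_univ_four]
    simp only [Matrix.diagonal_mul, Matrix.transpose_apply]
    have z0 : ∀ c, g ![c, 0] ![a, b] = 0 := fun c => (block_zero h3 hj hb (by decide) a c).2
    have z1 : ∀ c, g ![c, 1] ![a, b] = 0 := fun c => (block_zero h3 hj hb (by decide) a c).2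
    simp only [z0, z1, zero_mul, Finset.sum_const_zero, zero_add, ← Finset.sum_add_distrib]
    refine Finset.sum_congr rfl fun c _ => ?_
    simp only [Fin.prod_univ_two, Matrix.cons_val_zero, Matrix.cons_val_one,
      wt_low δ (show (2 : Fin 4) ≤ 2 from le_rfl), wt_low δ (show (2 : Fin 4) ≤ 3 by decide), mul_one]
    ring
  refine ⟨by simpa using key 2 2 le_rfl le_rfl, ?_⟩
  have e := key 2 3 le_rfl (by decide)
  rw [if_neg (fun h => absurd h.2 (by decide))] at e
  rw [← e]
  refine Finset.sum_congr rfl fun c _ => ?_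
  rw [(quarter hr c a').2, (quarter hr c a').1]
  ring

/-- The field with nine elements. -/
abbrev F9 : Type := GaloisField 3 2

lemma card_F9 : Nat.card F9 = 9 := by rw [GaloisField.card 3 2 two_ne_zero]; norm_num

lemma sqField_F9 : Classical.U.SqField F9 3 :=
  ⟨Nat.finite_of_card_ne_zero (by rw [card_F9]; decide), by rw [card_F9]; norm_num⟩

lemma exists_root : ∃ s : F9, s ^ 4 = -1 := by
  have hf : Finite F9 := sqField_F9.1
  have : Fintype F9 := Fintype.ofFinite F9
  obtain ⟨g, hg⟩ := IsCyclic.exists_ofOrder_eq_natCard (α := F9ˣ)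
  rw [Nat.card_units, card_F9] at hg
  have h8 : (g : F9) ^ 8 = 1 := by
    have e : g ^ 8 = 1 := by
      have := pow_orderOf_eq_one g
      rw [hg] at this; exact this
    rw [← Units.val_pow_eq_pow_val, e, Units.val_one]
  have h44 : ((g : F9) ^ 4) * ((g : F9) ^ 4) = 1 := by rw [← pow_add]; exact h8
  refine ⟨g, (mul_self_eq_one_iff.1 h44).resolve_left ?_⟩
  intro e
  have := orderOf_dvd_of_pow_eq_one (x := g) (n := 4) (Units.ext (by simpa using e))
  rw [hg] at this; norm_num at this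

/-- The complex coordinate of the block. -/
noncomputable def cx (φ : F →+* F9) (s : F9) (g : MV F 2) (a a' : Fin 4) : F9 :=
  φ (g ![a, 2] ![a', 2]) + s ^ 2 * φ (g ![a, 3] ![a', 2])

/-- The scaling of the first coordinate. -/
noncomputable def sc (s : F9) : Fin 4 → F9 := ![s, 1, 1, 1]

/-- The image in degree four. -/
noncomputable def um (φ : F →+* F9) (s : F9) (g : MV F 2) : Matrix (Fin 4) (Fin 4) F9 :=
  Matrix.of fun a a' => sc s a * cx φ s g a a' * (sc s a')⁻¹

variable {φ : F →+* F9} {s : F9}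

lemma s_ne (hs : s ^ 4 = -1) : s ≠ 0 := by
  rintro rfl; norm_num at hs

lemma sc_ne (hs : s ^ 4 = -1) (a : Fin 4) : sc s a ≠ 0 := by
  fin_cases a <;> simp [sc, s_ne hs]

lemma sc_four (h3 : Three F) (hd : ¬ IsSquare δ) (hs : s ^ 4 = -1) (a : Fin 4) :
    sc s a ^ 4 = φ (wt δ a) := by
  rw [h3.delta hd]
  fin_cases a <;> simp [sc, wt, hs]

lemma cube (h3 : Three F) (hs : s ^ 4 = -1) (x y : F) :
    (φ x + s ^ 2 * φ y) ^ 3 = φ x - s ^ 2 * φ y := by
  have hc : CharP F9 3 := inferInstance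
  have : Fact (Nat.Prime 3) := ⟨by decide⟩
  have e : ∀ z : F, z ^ 3 = z := fun z => by rcases h3.cases z with rfl | rfl | rfl <;> ring
  rw [add_pow_char, mul_pow, ← map_pow, ← map_pow, e, e, ← pow_mul,
    show s ^ (2 * 3) = -s ^ 2 by linear_combination s ^ 2 * hs]
  ring

lemma cx_mul (h3 : Three F) (hs : s ^ 4 = -1) {g h : MV F 2} (hj : g * jM F = jM F * g)
    (hr : g * rM F = rM F * g) (a a' : Fin 4) :
    cx φ s (g * h) a a' = ∑ c, cx φ s g a c * cx φ s h c a' := by
  have z : ∀ (b b' c : Fin 4), 2 ≤ b → b' < 2 → g ![a, b] ![c, b'] = 0 :=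
    fun b b' c hb hb' => (block_zero h3 hj hb hb' a c).1
  have e2 : (g * h) ![a, 2] ![a', 2] = ∑ c, (g ![a, 2] ![c, 2] * h ![c, 2] ![a', 2] -
      g ![a, 3] ![c, 2] * h ![c, 3] ![a', 2]) := by
    rw [Matrix.mul_apply, sum_pair, Fin.sum_univ_four]
    simp only [z 2 0 _ le_rfl (by decide), z 2 1 _ le_rfl (by decide), zero_mul, Finset.sum_const_zero,
      zero_add, ← Finset.sum_add_distrib]
    refine Finset.sum_congr rfl fun c _ => ?_
    rw [(quarter hr a c).2]; ring
  have e3 : (g * h) ![a, 3] ![a', 2] = ∑ c, (g ![a, 3] ![c, 2] * h ![c, 2] ![a', 2] +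
      g ![a, 2] ![c, 2] * h ![c, 3] ![a', 2]) := by
    rw [Matrix.mul_apply, sum_pair, Fin.sum_univ_four]
    simp only [z 3 0 _ (by decide) (by decide), z 3 1 _ (by decide) (by decide), zero_mul,
      Finset.sum_const_zero, zero_add, ← Finset.sum_add_distrib]
    refine Finset.sum_congr rfl fun c _ => ?_
    rw [(quarter hr a c).1]
  rw [cx, e2, e3, map_sum, map_sum, Finset.mul_sum, ← Finset.sum_add_distrib]
  refine Finset.sum_congr rfl fun c _ => ?_
  simp only [cx, map_sub, map_add, map_mul]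
  linear_combination -(φ (g ![a, 3] ![c, 2]) * φ (h ![c, 3] ![a', 2])) * hs

lemma um_mul (h3 : Three F) (hs : s ^ 4 = -1) {g h : MV F 2} (hj : g * jM F = jM F * g)
    (hr : g * rM F = rM F * g) : um φ s (g * h) = um φ s g * um φ s h := by
  ext a a'
  simp only [um, Matrix.of_apply, Matrix.mul_apply, cx_mul h3 hs hj hr, Finset.mul_sum, Finset.sum_mul]
  refine Finset.sum_congr rfl fun c _ => ?_
  have := sc_ne hs c
  field_simp

lemma um_one (hs : s ^ 4 = -1) : um φ s 1 = 1 := by
  ext a a'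
  have := sc_ne hs a
  by_cases h : a = a'
  · subst h
    have : (![a, 3] : Fin 2 → Fin 4) ≠ ![a, 2] := fun e => absurd (congrFun e 1) (by simp)
    simp [um, cx, Matrix.one_apply, this, *]
  · have n2 : (![a, 2] : Fin 2 → Fin 4) ≠ ![a', 2] := fun e => h (congrFun e 0)
    have n3 : (![a, 3] : Fin 2 → Fin 4) ≠ ![a', 2] := fun e => h (congrFun e 0)
    simp [um, cx, Matrix.one_apply, n2, n3, h]

/-- The image preserves the hermitian form. -/
lemma um_herm (h3 : Three F) (hd : ¬ IsSquare δ) (hs : s ^ 4 = -1) {g : MV F 2} (hiso : IsoV δ g)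
    (hj : g * jM F = jM F * g) (hr : g * rM F = rM F * g) (u v : Fin 4 → F9) :
    Cfsg.hermForm 4 F9 3 (um φ s g *ᵥ u) (um φ s g *ᵥ v) = Cfsg.hermForm 4 F9 3 u v := by
  have hc : CharP F9 3 := inferInstance
  have : Fact (Nat.Prime 3) := ⟨by decide⟩
  have hgr : ∀ a a', ∑ c, um φ s g c a * um φ s g c a' ^ 3 = if a = a' then 1 else 0 := by
    intro a a'
    obtain ⟨e1, e2⟩ := gram h3 hiso hj hr a a'
    calc ∑ c, um φ s g c a * um φ s g c a' ^ 3
        = ((sc s a)⁻¹ * ((sc s a')⁻¹) ^ 3) * ∑ c, sc s c ^ 4 * (cx φ s g c a * cx φ s g c a' ^ 3) := by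
          rw [Finset.mul_sum]
          exact Finset.sum_congr rfl fun c _ => by simp only [um, Matrix.of_apply, mul_pow]; ring
      _ = ((sc s a)⁻¹ * ((sc s a')⁻¹) ^ 3) * (φ (∑ c, wt δ c * (g ![c, 2] ![a, 2] * g ![c, 2] ![a', 2] +
            g ![c, 3] ![a, 2] * g ![c, 3] ![a', 2])) + s ^ 2 * φ (∑ c, wt δ c *
            (g ![c, 3] ![a, 2] * g ![c, 2] ![a', 2] - g ![c, 2] ![a, 2] * g ![c, 3] ![a', 2]))) := by
          rw [map_sum, map_sum, Finset.mul_sum (a := s ^ 2), ← Finset.sum_add_distrib]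
          congr 1
          refine Finset.sum_congr rfl fun c _ => ?_
          rw [sc_four (φ := φ) h3 hd hs, cx, cx, cube h3 hs]
          simp only [map_mul, map_add, map_sub]
          linear_combination -(φ (wt δ c) * φ (g ![c, 3] ![a, 2]) * φ (g ![c, 3] ![a', 2])) * hs
      _ = if a = a' then 1 else 0 := by
          rw [e1, e2, map_zero, mul_zero, add_zero]
          by_cases h : a = a'
          · subst h
            rw [if_pos rfl, if_pos rfl, ← sc_four (φ := φ) h3 hd hs a]
            have := sc_ne hs a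
            field_simp
          · rw [if_neg h, if_neg h, map_zero, mul_zero]
  simp only [Cfsg.hermForm, Matrix.mulVec, dotProduct]
  simp_rw [sum_pow_char, mul_pow, Finset.sum_mul_sum]
  rw [Finset.sum_comm]
  refine Finset.sum_congr rfl fun a _ => ?_
  rw [Finset.sum_comm]
  calc ∑ a', ∑ c, um φ s g c a * u a * (um φ s g c a' ^ 3 * v a' ^ 3)
      = ∑ a', (u a * v a' ^ 3) * ∑ c, um φ s g c a * um φ s g c a' ^ 3 := by
        refine Finset.sum_congr rfl fun a' _ => ?_
        rw [Finset.mul_sum]; exact Finset.sum_congr rfl fun c _ => by ring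
    _ = u a * v a ^ 3 := by simp [hgr]

/-- The order of a group of isometries commuting with the half turn and the quarter turn. -/
theorem card_dvd (h3 : Three F) (hd : ¬ IsSquare δ) (L : Subgroup (GV F 2))
    (hiso : ∀ g ∈ L, IsoV δ (g : MV F 2))
    (hj : ∀ g ∈ L, (g : MV F 2) * jM F = jM F * g)
    (hr : ∀ g ∈ L, (g : MV F 2) * rM F = rM F * g)
    (hker : ∀ g ∈ L, (g : MV F 2) * (1 + jM F) = 1 + jM F →
      (g : MV F 2) = 1 ∨ (g : MV F 2) = jM F) :
    Nat.card L ∣ 2 * (2 ^ 11 * 3 ^ 6 * 35) := by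
  have hf : Finite F := Nat.finite_of_card_ne_zero (by rw [show Nat.card F = 3 from h3]; decide)
  have : Fintype F := Fintype.ofFinite F
  have : Fact (Nat.Prime 3) := ⟨by decide⟩
  have hF9 : Finite F9 := sqField_F9.1
  let φ : F →+* F9 := (algebraMap (ZMod 3) F9).comp
    (ZMod.ringEquivOfPrime F (by decide : Nat.Prime 3)
      (by rw [← Nat.card_eq_fintype_card]; exact h3)).symm.toRingHom
  obtain ⟨s, hs⟩ := exists_root
  let ψ : L →* GL (Fin 4) F9 :=
    { toFun := fun g => ⟨um φ s (g.1 : MV F 2), um φ s ((g⁻¹ : L).1 : MV F 2),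
        by rw [← um_mul h3 hs (hj _ g.2) (hr _ g.2), ← Units.val_mul, ← Subgroup.coe_mul,
          mul_inv_cancel, OneMemClass.coe_one, Units.val_one, um_one hs],
        by rw [← um_mul h3 hs (hj _ (g⁻¹).2) (hr _ (g⁻¹).2), ← Units.val_mul, ← Subgroup.coe_mul,
          inv_mul_cancel, OneMemClass.coe_one, Units.val_one, um_one hs]⟩
      map_one' := Units.ext (by simp [um_one hs])
      map_mul' := fun g h => Units.ext (um_mul h3 hs (hj _ g.2) (hr _ g.2)) }
  have hrange : ψ.range ≤ Cfsg.GU 4 F9 3 := by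
    rintro _ ⟨g, rfl⟩ u v
    exact um_herm h3 hd hs (hiso _ g.2) (hj _ g.2) (hr _ g.2) u v
  have hGU : Nat.card (Cfsg.GU 4 F9 3) = 2 ^ 11 * 3 ^ 6 * 35 := by
    rw [Nat.card_congr (Classical.U.guEquiv 4 F9 3).toEquiv, Classical.U.card_UG sqField_F9]
    simp [Finset.prod_range_succ, show Even 2 by decide, show ¬ Even 1 by decide,
      show ¬ Even 3 by decide]
  rw [← Subgroup.card_mul_index ψ.ker, Subgroup.index_ker]
  refine mul_dvd_mul ?_ (hGU ▸ Subgroup.card_dvd_of_le hrange)
  -- the kernel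
  have h2 : ∀ g ∈ ψ.ker, (g.1 : MV F 2) = 1 ∨ (g.1 : MV F 2) = jM F := by
    intro g hg
    refine hker _ g.2 ?_
    have e : um φ s (g.1 : MV F 2) = 1 := congrArg Units.val (MonoidHom.mem_ker.1 hg)
    have hx : ∀ a a', (g.1 : MV F 2) ![a, 2] ![a', 2] = (if a = a' then 1 else 0) ∧
        (g.1 : MV F 2) ![a, 3] ![a', 2] = 0 := by
      intro a a'
      have e1 := congrFun (congrFun e a) a'
      have h0 : cx φ s (g.1 : MV F 2) a a' = if a = a' then 1 else 0 := by
        have := sc_ne hs a; have := sc_ne hs a'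
        rw [um, Matrix.of_apply, Matrix.one_apply] at e1
        by_cases h : a = a'
        · subst h; rw [if_pos rfl] at e1 ⊢; field_simp at e1; linear_combination e1
        · rw [if_neg h] at e1 ⊢
          simpa [sc_ne hs a, sc_ne hs a'] using e1
      -- apply the cube map to separate the two parts
      have h1 : φ ((g.1 : MV F 2) ![a, 2] ![a', 2]) - s ^ 2 * φ ((g.1 : MV F 2) ![a, 3] ![a', 2]) =
          if a = a' then 1 else 0 := by
        rw [← cube h3 hs, ← cx, h0]; split_ifs <;> simp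
      rw [cx] at h0
      have h32 : (2 : F9) ≠ 0 := by
        intro z
        have : φ (2 : F) = 0 := by rw [map_ofNat]; exact z
        exact h3.two_ne ((map_eq_zero φ).1 this)
      refine ⟨φ.injective ?_, φ.injective ?_⟩
      · refine mul_left_cancel₀ h32 ?_
        rw [apply_ite φ, map_one, map_zero]
        linear_combination h0 + h1
      · rw [map_zero]
        have hz : (2 * s ^ 2) * φ ((g.1 : MV F 2) ![a, 3] ![a', 2]) = 0 := by
          linear_combination h0 - h1
        exact (mul_eq_zero.1 hz).resolve_left (mul_ne_zero h32 (pow_ne_zero 2 (s_ne hs)))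
    refine ext_pair fun a b a' b' => ?_
    rw [mul_add, mul_one, Matrix.add_apply, Matrix.add_apply, mul_jM, jM_apply, Matrix.one_apply]
    by_cases hb' : b' < 2
    · have v : (![-1, -1, 1, 1] : Fin 4 → F) b' = -1 := by fin_cases b' <;> simp_all
      by_cases h : a = a' ∧ b = b'
      · obtain ⟨rfl, rfl⟩ := h; simp [v]
      · rw [if_neg h, if_neg (fun e => h ⟨congrFun e 0, congrFun e 1⟩), v]; ring
    have v : (![-1, -1, 1, 1] : Fin 4 → F) b' = 1 := by fin_cases b' <;> simp_all
    have hval : (g.1 : MV F 2) ![a, b] ![a', b'] = if a = a' ∧ b = b' then 1 else 0 := by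
      by_cases hb : b < 2
      · rw [(block_zero h3 (hj _ g.2) (not_lt.1 hb') hb a' a).2, if_neg]
        rintro ⟨-, rfl⟩; exact hb' hb
      have q := quarter (hr _ g.2) a a'
      have x := hx a a'
      fin_cases b <;> simp_all <;> fin_cases b' <;> simp_all
    by_cases h : a = a' ∧ b = b'
    · obtain ⟨rfl, rfl⟩ := h; simp [hval, v]
    · rw [hval, if_neg h, if_neg (fun e => h ⟨congrFun e 0, congrFun e 1⟩), v]; simp [h]
  classical
  have hinj : Function.Injective fun g : ψ.ker => decide ((g.1.1 : MV F 2) = 1) := by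
    intro g h e
    simp only [decide_eq_decide] at e
    apply Subtype.ext; apply Subtype.ext; apply Units.ext
    rcases h2 g.1 g.2 with hg | hg <;> rcases h2 h.1 h.2 with hh | hh
    · rw [hg, hh]
    · rw [hg, e.1 hg]
    · rw [e.2 hh, hh]
    · rw [hg, hh]
  have hle := Nat.card_le_card_of_injective _ hinj
  rw [Nat.card_eq_fintype_card (α := Bool), Fintype.card_bool] at hle
  have hpos : 0 < Nat.card ψ.ker := Nat.card_pos
  interval_cases hh : Nat.card ψ.ker <;> norm_num

end Cfsg.Agent.MaxSub.OrthFour.HalfThree
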