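import Cfsg.Agent.MaxSub.OrthFour.HalfThree.Transfer
import Cfsg.Agent.MaxSub.OrthFour.HalfThree.Unitary

/-!
The index of the monomial part in the centraliser of the normal half turn is one.
-/

set_option autoImplicit false
set_option linter.unusedSectionVars false
set_option linter.unusedSimpArgs false
set_option linter.style.haveILetI false

namespace Cfsg.Agent.MaxSub.OrthFour.HalfThree

open Matrix Cfsg.Geo Cfsg.Agent.NotMax Cfsg.Agent.GeoClasses
open Cfsg.Agent.MaxSub.OrthWreathBig (gB sieM)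
open scoped MatrixGroups Matrix

variable {F : Type*} [Field F] [Finite F] {δ : F} {M : Subgroup (GV F 2)}

/-- Conjugating a root element into the monomial group forces monomial. -/
def ClassLe (δ : F) (M : Subgroup (GV F 2)) : Prop :=
  ∀ g ∈ M, ∀ u ∈ M, IsSiteU δ (u : MV F 2) → g * u * g⁻¹ ∈ Wr F 2 → g ∈ Wr F 2

/-- The monomial part as a subgroup of the centraliser. -/
abbrev monJ (M : Subgroup (GV F 2)) : Subgroup (cenJ M) := (Wr F 2).subgroupOf (cenJ M)

lemma card_monJ (M : Subgroup (GV F 2)) :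
    Nat.card (monJ M) = Nat.card (cenJ M ⊓ Wr F 2 : Subgroup (GV F 2)) :=
  Nat.card_congr
    { toFun := fun g => ⟨g.1.1, g.1.2, g.2⟩
      invFun := fun g => ⟨⟨g.1, g.2.1⟩, g.2.2⟩
      left_inv := fun _ => rfl
      right_inv := fun _ => rfl }

/-- A site zero isometry of determinant one in the centraliser. -/
lemma site_zero_mem (h : Over δ M) {A : M4 F} (hA : IsoW δ A) (d : A.det = 1) :
    pairGL h.nsq hA iso_one ∈ cenJ M ⊓ Wr F 2 :=
  pairGL_mem_cenJ h hA iso_one (by rw [d, det_one]) (by rw [one_mul, mul_one])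

lemma site_zero_val (h : Over δ M) {A : M4 F} (hA : IsoW δ A) :
    (pairGL h.nsq hA iso_one : MV F 2) = site 0 A := by rw [pairGL_val, site_one, mul_one]

/-- The root group of one site in the centraliser. -/
theorem nine (h3 : Three F) (h : Over δ M) (hclass : ClassLe δ M) :
    9 ∣ Nat.card (monJ M) ∧ 9 ∣ (monJ M).index - 1 := by
  have h2 := h.two
  set w : Fin 4 → F := ![1, 1, 0, 0] with hw_def
  have hw : gB (G4 δ) w w = 0 := by simp [gB_diag, hw_def, h3.delta h.nsq]
  have hw0 : w ≠ 0 := fun e => one_ne_zero (α := F) (by simpa [hw_def] using congrFun e 0)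
  have hp : ∀ a b : F, (![0, 0, a, b] : Fin 4 → F) ∈ perpW δ w := fun a b => by
    simp [LinearMap.mem_ker, gB_diag, hw_def]
  let f : Multiplicative (F × F) →* GV F 2 :=
    { toFun := fun x => siteUHom h2 0 w hw (Multiplicative.ofAdd ⟨_, hp x.toAdd.1 x.toAdd.2⟩)
      map_one' := by
        convert map_one (siteUHom (δ := δ) h2 (0 : Fin 2) w hw) using 2
        refine Multiplicative.toAdd.injective (Subtype.ext ?_)
        funext i; fin_cases i <;> simp
      map_mul' := fun x y => by
        rw [← map_mul]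
        congr 1
        refine Multiplicative.toAdd.injective (Subtype.ext ?_)
        funext i; fin_cases i <;> simp }
  have hinj : Function.Injective f := by
    rw [injective_iff_map_eq_one]
    intro x e
    obtain ⟨c, hc⟩ := Submodule.mem_span_singleton.1 ((siteUHom_eq_one_iff h2 h.nsq 0 hw0 hw _).1 e)
    have c0 : c = 0 := by simpa [hw_def] using congrFun hc 0
    have a := congrFun hc 2
    have b := congrFun hc 3
    simp [c0] at a b
    exact Multiplicative.toAdd.injective (Prod.ext a.symm b.symm)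
  have hsite : ∀ x, f x ≠ 1 → IsSiteU δ (f x : MV F 2) := fun x hx =>
    isSiteU_siteUHom h2 h.nsq 0 hw0 hw hx
  have hM : ∀ x, f x ∈ M := fun x => by
    by_cases hx : f x = 1
    · rw [hx]; exact M.one_mem
    · exact h.mem (siteUHom_mem_Wr h2 0 w hw _) (siteU_mem_Om h2 h.nsq (hsite x hx))
  have hJ : ∀ x, f x ∈ cenJ M := fun x => mem_cenJ.2 ⟨hM x, by
    show ((siteUHom (δ := δ) h2 (0 : Fin 2) w hw (Multiplicative.ofAdd ⟨_, hp x.toAdd.1 x.toAdd.2⟩) :
      GV F 2) : MV F 2) * jM F = _ * ((siteUHom (δ := δ) h2 (0 : Fin 2) w hw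
      (Multiplicative.ofAdd ⟨_, hp x.toAdd.1 x.toAdd.2⟩) : GV F 2) : MV F 2)
    rw [val_siteUHom, jM, site_comm (show (0 : Fin 2) ≠ 1 by decide)]⟩
  let f' : Multiplicative (F × F) →* cenJ M := f.codRestrict (cenJ M) hJ
  have hA : ∀ x, f' x ∈ monJ M := fun x => siteUHom_mem_Wr h2 0 w hw _
  have hcard : Nat.card (Multiplicative (F × F)) = 9 := by
    rw [show Nat.card (Multiplicative (F × F)) = Nat.card (F × F) from rfl, Nat.card_prod,
      show Nat.card F = 3 from h3]
  constructor
  · rw [← hcard]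
    exact Subgroup.card_dvd_of_injective (f'.codRestrict (monJ M) hA) fun x y e =>
      hinj (congrArg (fun z : monJ M => (z : cenJ M).1) e)
  · rw [← hcard]
    refine free_card (monJ M) f' hA fun x hx g hg => ?_
    have hne : f x ≠ 1 := fun e => hx (hinj (e.trans (map_one f).symm))
    have := hclass _ (M.inv_mem g.2.1) _ (hM x) (hsite x hne) (by
      simpa [Subgroup.mem_subgroupOf, f'] using hg)
    exact (Wr F 2).inv_mem_iff.1 this

/-- The order of the centraliser. -/
theorem card_cenJ_dvd (h3 : Three F) (h : Over δ M) (hk : KernelLe δ M) :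
    Nat.card (cenJ M) ∣ 2 * (2 ^ 11 * 3 ^ 6 * 35) * 2 := by
  classical
  have hR := pairGL_mem_cenJ h iso_one (iso_rot (F := F)) (by rw [det_one, det_rot]) (by
    ext i j; fin_cases i <;> fin_cases j <;> simp [rot, D4, Matrix.mul_apply, Fin.sum_univ_four])
  set R := pairGL h.nsq iso_one (iso_rot (F := F) (δ := δ)) with hR_def
  have hRv : (R : MV F 2) = rM F := by rw [hR_def, pairGL_val, site_one, one_mul, rM]
  have hS := pairGL_mem_cenJ h (iso_dsg (δ := δ) h3 ![-1, 1, 1, 1]) (iso_dsg h3 ![1, 1, -1, 1])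
    (by simp [det_dsg, Fin.prod_univ_four]) (dsg_D4 _)
  set S := pairGL h.nsq (iso_dsg (δ := δ) h3 ![-1, 1, 1, 1]) (iso_dsg h3 ![1, 1, -1, 1]) with hS_def
  have hSS : S * S = 1 := by
    rw [hS_def, pairGL_mul]
    refine Units.ext ?_
    have : ∀ v : Fin 4 → ℤˣ, (dsg v : M4 F) * dsg v = 1 := fun v => by
      rw [dsg_mul, ← dsg_one]; congr 1; funext i; exact Int.units_mul_self _
    simp [pairGL_val, this, site_one]
  have hSR : R * (S * R) = S := by
    rw [hS_def, hR_def, pairGL_mul, pairGL_mul]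
    refine pairGL_congr _ _ _ _ _ (by rw [one_mul, mul_one]) ?_
    ext i j; fin_cases i <;> fin_cases j <;> simp [rot, dsg, Matrix.mul_apply, Fin.sum_univ_four]
  set L0 := cenJ M ⊓ Subgroup.centralizer ({R} : Set (GV F 2)) with hL0
  have memL0 : ∀ g, g ∈ L0 ↔ g ∈ cenJ M ∧ g * R = R * g := fun g => by
    rw [hL0, Subgroup.mem_inf, Subgroup.mem_centralizer_singleton_iff]
  have hU : Nat.card L0 ∣ 2 * (2 ^ 11 * 3 ^ 6 * 35) := by
    refine card_dvd h3 h.nsq L0 (fun g hg => h.isoV ((memL0 g).1 hg).1.1)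
      (fun g hg => ((memL0 g).1 hg).1.2) (fun g hg => ?_) (fun g hg => kernel_plus h3 h hk ((memL0 g).1 hg).1)
    have e := congrArg Units.val ((memL0 g).1 hg).2
    rwa [Units.val_mul, Units.val_mul, hRv] at e
  have key : ∀ g ∈ cenJ M, g ∈ L0 ∨ S * g ∈ L0 := by
    intro g hg
    have hc : g * R * g⁻¹ ∈ cenJ M := (cenJ M).mul_mem ((cenJ M).mul_mem hg hR.1) ((cenJ M).inv_mem hg)
    have e : ((g * R * g⁻¹ : GV F 2) : MV F 2) * (1 - jM F) = 1 - jM F := by
      have c1 : Commute (((g⁻¹ : GV F 2)) : MV F 2) (1 - jM F) :=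
        (Commute.one_right _).sub_right (mem_cenJ.1 ((cenJ M).inv_mem hg)).2
      have c2 : rM F * (1 - jM F) = 1 - jM F := by
        rw [rM, jM, ← site_one (F := F) (t := 2) (k := 4) 1, ← OrthWreathBig.site_sub, site_mul]
        congr 1
        ext i j; fin_cases i <;> fin_cases j <;> simp [rot, D4, Matrix.mul_apply, Fin.sum_univ_four]
      rw [Units.val_mul, Units.val_mul, mul_assoc, c1.eq, ← mul_assoc, hRv, mul_assoc (g : MV F 2), c2,
        mul_assoc, ← c1.eq, ← mul_assoc, Units.mul_inv, one_mul]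
    have four : R * R * (R * R) = 1 := Units.ext (by
      rw [Units.val_mul, Units.val_mul, hRv, Units.val_one, rM, site_mul, site_mul,
        ← site_one (F := F) (t := 2) (k := 4) 1]
      congr 1
      ext i j; fin_cases i <;> fin_cases j <;> simp [rot, Matrix.mul_apply, Fin.sum_univ_four])
    have two : R * R ≠ 1 := fun e' => by
      have e'' : ((R * R : GV F 2) : MV F 2) = 1 := congrArg Units.val e'
      have := congrFun (congrFun e'' ![0, 2]) ![0, 2]
      rw [Units.val_mul, hRv, rM, site_mul, site_one_apply', Matrix.one_apply_eq] at this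
      simp [rot, Matrix.mul_apply, Fin.sum_univ_four] at this
      exact h3.two_ne (by linear_combination -this)
    have sq : g * R * g⁻¹ * (g * R * g⁻¹) = g * (R * R) * g⁻¹ := by group
    rcases kernel_minus h3 h hk hc e with e1 | e1 | e1 | e1
    · exfalso
      have : g * R * g⁻¹ = 1 := Units.ext e1
      rw [mul_inv_eq_one, mul_eq_left] at this
      exact two (by rw [this, one_mul])
    · exfalso
      have : g * R * g⁻¹ = R * R := Units.ext (by rw [e1, Units.val_mul, hRv])
      rw [this, four, eq_comm, mul_inv_eq_one, mul_eq_left] at sq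
      exact two sq
    · left
      have : g * R * g⁻¹ = R := Units.ext (e1.trans hRv.symm)
      exact (memL0 g).2 ⟨hg, by rwa [mul_inv_eq_iff_eq_mul] at this⟩
    · right
      have h3' : g * R * g⁻¹ = R * R * R :=
        Units.ext (by rw [e1, Units.val_mul, Units.val_mul, hRv])
      rw [mul_inv_eq_iff_eq_mul] at h3'
      refine (memL0 _).2 ⟨(cenJ M).mul_mem hS.1 hg, ?_⟩
      calc S * g * R = R * (S * R) * (R * R * R * g) := by rw [hSR, mul_assoc, h3']
        _ = R * S * (R * R * (R * R)) * g := by group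
        _ = R * (S * g) := by rw [four, mul_one, mul_assoc]
  set K := L0.subgroupOf (cenJ M)
  have hidx : K.index ∣ 2 := by
    have hle : K.index ≤ 2 := by
      rw [Subgroup.index_eq_card]
      refine (Nat.card_le_card_of_surjective
        (fun b : Bool => ((if b then 1 else ⟨S, hS.1⟩ : cenJ M) : cenJ M ⧸ K)) ?_).trans (by simp)
      intro q
      obtain ⟨g, rfl⟩ := Quotient.exists_rep q
      rcases key g.1 g.2 with hg | hg
      · exact ⟨true, QuotientGroup.eq.2 (by simpa [K, Subgroup.mem_subgroupOf] using hg)⟩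
      · refine ⟨false, QuotientGroup.eq.2 ?_⟩
        simp only [K, Subgroup.mem_subgroupOf, Subgroup.coe_mul, Subgroup.coe_inv]
        rwa [if_neg (by simp), inv_eq_of_mul_eq_one_right hSS]
    have hne : K.index ≠ 0 := Subgroup.index_ne_zero_of_finite
    rcases (show K.index = 1 ∨ K.index = 2 by omega) with e | e <;> simp [e]
  rw [← Subgroup.card_mul_index K]
  exact mul_dvd_mul ((dvd_of_eq (Nat.card_congr (Subgroup.subgroupOfEquivOfLe inf_le_left).toEquiv)).trans hU) hidx

/-- The element of order five. -/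
noncomputable def fiveGL (h3 : Three F) (hd : ¬ IsSquare δ) : GV F 2 :=
  pairGL hd (iso_up h3 hd Cert.sM_iso.1) iso_one

lemma five (h3 : Three F) (h : Over δ M) :
    ∃ s : cenJ M, (s : GV F 2) = fiveGL h3 h.nsq ∧ s ∈ monJ M ∧ orderOf s = 5 := by
  have hm := site_zero_mem h (iso_up h3 h.nsq Cert.sM_iso.1) (det_up h3 Cert.sM_iso.2)
  refine ⟨⟨_, hm.1⟩, rfl, hm.2, orderOf_eq_prime (hp := ⟨by decide⟩) ?_ ?_⟩
  · apply Subtype.ext; apply Units.ext
    show ((fiveGL h3 h.nsq ^ 5 : GV F 2) : MV F 2) = 1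
    rw [Units.val_pow_eq_pow_val, fiveGL, site_zero_val h]
    simp only [pow_succ, pow_zero, one_mul, site_mul, ← map_mul, Cert.sM_pow.1, map_one, site_one]
  · intro e
    apply Cert.sM_pow.2
    have := congrArg (fun z : cenJ M => ((z : GV F 2) : MV F 2)) e
    simp only [OneMemClass.coe_one, Units.val_one] at this
    rw [site_zero_val h, ← site_one (F := F) (t := 2) (k := 4) 0] at this
    have h' := TensorPowSp.site_injective 0 this
    ext i j
    apply (em h3).injective
    rw [← up_apply h3, h', Matrix.one_apply, Matrix.one_apply]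
    split_ifs <;> simp

lemma index_cases (h3 : Three F) (h : Over δ M) (hk : KernelLe δ M) (hclass : ClassLe δ M) :
    (monJ M).index = 1 ∨ (monJ M).index = 28 := by
  obtain ⟨n9, hmod⟩ := nine h3 h hclass
  have n256 : 256 ∣ Nat.card (monJ M) := by rw [card_monJ]; exact dvd_two_part h3 h
  have n5 : 5 ∣ Nat.card (monJ M) := by
    obtain ⟨s, -, hs, ho⟩ := five h3 h
    rw [← ho, ← Subgroup.orderOf_mk s hs]
    exact orderOf_dvd_natCard _
  have hc : 256 * 9 * 5 ∣ Nat.card (monJ M) :=
    (by decide : Nat.Coprime (256 * 9) 5).mul_dvd_of_dvd_of_dvd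
      ((by decide : Nat.Coprime 256 9).mul_dvd_of_dvd_of_dvd n256 n9) n5
  have hk' : 256 * 9 * 5 * (monJ M).index ∣ 256 * 9 * 5 * 18144 := by
    refine (mul_dvd_mul_right hc _).trans ?_
    rw [Subgroup.card_mul_index]
    exact (card_cenJ_dvd h3 h hk).trans (dvd_of_eq (by norm_num))
  have hd : (monJ M).index ∣ 18144 := Nat.dvd_of_mul_dvd_mul_left (by decide) hk'
  have hne : (monJ M).index ≠ 0 := Subgroup.index_ne_zero_of_finite
  have h1 : (monJ M).index % 9 = 1 := by omega
  have hco : Nat.Coprime (monJ M).index (3 ^ 4) :=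
    Nat.Coprime.pow_right _ ((Nat.coprime_comm.1 (Nat.prime_three.coprime_iff_not_dvd.2 (by omega))))
  have h224 : (monJ M).index ∣ 224 := hco.dvd_of_dvd_mul_left (m := 3 ^ 4) (by norm_num; exact hd)
  have hle := Nat.le_of_dvd (by decide) h224
  have := (by decide +kernel : ∀ k, k < 225 → k ∣ 224 → k % 9 = 1 → k = 1 ∨ k = 28) _ (by omega) h224 h1
  exact this

/-- Twenty-eight is impossible. -/
lemma index_ne (h3 : Three F) (h : Over δ M) (hclass : ClassLe δ M) : (monJ M).index ≠ 28 := by
  intro h28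
  obtain ⟨s, hsv, hs, ho⟩ := five h3 h
  set o : cenJ M ⧸ monJ M := ((1 : cenJ M) : cenJ M ⧸ monJ M) with ho'
  -- a fixed point of the element of order five other than the trivial coset
  haveI : Fact (Nat.Prime 5) := ⟨by decide⟩
  have hP : IsPGroup 5 (Subgroup.zpowers s) := IsPGroup.of_card (n := 1) (by rw [Nat.card_zpowers, ho, pow_one])
  have hcard : Nat.card (cenJ M ⧸ monJ M) = 28 := by rw [← Subgroup.index_eq_card, h28]
  have hm := hP.card_modEq_card_fixedPoints (cenJ M ⧸ monJ M)
  rw [hcard] at hm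
  have fixo : ∀ l : cenJ M, l ∈ monJ M → l • o = o := fun l hl => by
    rw [ho', MulAction.Quotient.smul_coe, smul_eq_mul, mul_one, QuotientGroup.eq, mul_one]
    exact (monJ M).inv_mem hl
  obtain ⟨p, hp, hpo⟩ : ∃ p, p ∈ MulAction.fixedPoints (Subgroup.zpowers s) (cenJ M ⧸ monJ M) ∧ p ≠ o := by
    by_contra hc
    push Not at hc
    have hss : Subsingleton (MulAction.fixedPoints (Subgroup.zpowers s) (cenJ M ⧸ monJ M)) :=
      ⟨fun a b => Subtype.ext ((hc a.1 a.2).trans (hc b.1 b.2).symm)⟩
    have hle : Nat.card (MulAction.fixedPoints (Subgroup.zpowers s) (cenJ M ⧸ monJ M)) ≤ 1 :=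
      Finite.card_le_one_iff_subsingleton.2 hss
    unfold Nat.ModEq at hm
    omega
  have hsp : s • p = p := hp ⟨s, Subgroup.mem_zpowers s⟩
  -- root elements of the first site fix only the trivial coset
  have noU : ∀ l : cenJ M, IsSiteU δ ((l : GV F 2) : MV F 2) → l • p ≠ p := by
    intro l hl e
    obtain ⟨g, rfl⟩ := QuotientGroup.mk_surjective p
    rw [MulAction.Quotient.smul_coe] at e
    have e' : (g : cenJ M)⁻¹ * l⁻¹ * g ∈ monJ M := by
      have := QuotientGroup.eq.1 e
      rwa [smul_eq_mul, _root_.mul_inv_rev] at this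
    have e'' := (monJ M).inv_mem e'
    rw [show ((g : cenJ M)⁻¹ * l⁻¹ * g)⁻¹ = g⁻¹ * l * g by group] at e''
    have := hclass _ (M.inv_mem g.2.1) _ l.2.1 hl (by simpa [Subgroup.mem_subgroupOf] using e'')
    exact hpo (QuotientGroup.eq.2 (by simpa [Subgroup.mem_subgroupOf] using this))
  -- matrices fixing the point
  set Fixes : Cert.Z4 → Prop := fun A =>
    ∃ l : cenJ M, ((l : GV F 2) : MV F 2) = site 0 (up h3 A) ∧ l • p = p with hFix
  have fmul : ∀ A B, Fixes A → Fixes B → Fixes (A * B) := by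
    rintro A B ⟨l, hl, hlp⟩ ⟨m, hm', hmp⟩
    exact ⟨l * m, by rw [Subgroup.coe_mul, Units.val_mul, hl, hm', site_mul, map_mul],
      by rw [mul_smul, hmp, hlp]⟩
  have fs : Fixes Cert.sM := ⟨s, by rw [hsv, fiveGL, site_zero_val h], hsp⟩
  have fone : Fixes 1 := ⟨1, by simp [site_one], one_smul _ _⟩
  let el : Fin 28 → cenJ M := fun i =>
    ⟨_, (site_zero_mem h (iso_up h3 h.nsq (Cert.hs_iso i).1) (det_up h3 (Cert.hs_iso i).2)).1⟩
  have elmem : ∀ i, el i ∈ monJ M := fun i =>
    (site_zero_mem h (iso_up h3 h.nsq (Cert.hs_iso i).1) (det_up h3 (Cert.hs_iso i).2)).2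
  have elval : ∀ i, ((el i : GV F 2) : MV F 2) = site 0 (up h3 (Cert.hs i)) := fun i =>
    site_zero_val h _
  have elinv : ∀ i, (((el i)⁻¹ : cenJ M).1 : MV F 2) = site 0 (up h3 (Cert.adj (Cert.hs i))) := fun i => by
    rw [Subgroup.coe_inv]
    refine Units.inv_eq_of_mul_eq_one_left ?_
    rw [elval, site_mul, ← map_mul, Cert.adj_mul, map_one, site_one]
  let T : Fin 28 → {q : cenJ M ⧸ monJ M // q ≠ o} := fun i =>
    ⟨el i • p, fun e => hpo (smul_left_cancel (el i) (e.trans (fixo _ (elmem i)).symm))⟩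
  have hcard' : Nat.card {q : cenJ M ⧸ monJ M // q ≠ o} = 27 := by
    classical
    have e : Nat.card {q : cenJ M ⧸ monJ M // q ≠ o} + 1 = Nat.card (cenJ M ⧸ monJ M) := by
      rw [← Finite.card_option, Nat.card_congr (Equiv.optionSubtypeNe o)]
    omega
  have hni : ¬ Function.Injective T := fun hT => by
    have := Nat.card_le_card_of_injective T hT
    rw [hcard', Nat.card_fin] at this
    omega
  obtain ⟨i, j, hij, hTij⟩ : ∃ i j : Fin 28, i < j ∧ el i • p = el j • p := by
    rw [Function.Injective] at hni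
    push Not at hni
    obtain ⟨a, b, e, hne⟩ := hni
    rcases lt_or_gt_of_ne hne with hlt | hlt
    · exact ⟨a, b, hlt, congrArg Subtype.val e⟩
    · exact ⟨b, a, hlt, (congrArg Subtype.val e).symm⟩
  have fij : ∀ a b : Fin 28, el a • p = el b • p → Fixes (Cert.adj (Cert.hs a) * Cert.hs b) := by
    intro a b e
    exact ⟨(el a)⁻¹ * el b, by rw [Subgroup.coe_mul, Units.val_mul, elinv, elval, site_mul, map_mul],
      by rw [mul_smul, ← e, inv_smul_smul]⟩
  have fgen : ∀ k, Fixes (Cert.gens i j k) := by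
    intro k
    fin_cases k
    · exact fij i j hTij
    · exact fij j i hTij.symm
    · exact fs
    · exact fmul _ _ fs fs
    · exact fmul _ _ (fmul _ _ fs fs) fs
    · exact fmul _ _ (fmul _ _ (fmul _ _ fs fs) fs) fs
  have fev : ∀ l, Fixes (Cert.ev i j l) := by
    intro l
    induction l with
    | nil => exact fone
    | cons k l ih => exact fmul _ _ (fgen k) ih
  obtain ⟨e, he, hei⟩ := List.mem_map.1 (Cert.items_cover i j hij)
  obtain ⟨l, hl, hlp⟩ := fev e.2.1
  have hU := isSiteU_of_good (δ := δ) h3 h.nsq (Cert.items_good e he)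
  rw [hei] at hU
  exact noU l (by rw [hl]; exact hU) hlp

/-- The centraliser of the normal half turn is monomial. -/
theorem cenJ_le (h3 : Three F) (h : Over δ M) (hk : KernelLe δ M) (hclass : ClassLe δ M) :
    cenJ M ≤ Wr F 2 := by
  have h1 := (index_cases h3 h hk hclass).resolve_right (index_ne h3 h hclass)
  rw [Subgroup.index_eq_one, Subgroup.subgroupOf_eq_top] at h1
  exact h1

end Cfsg.Agent.MaxSub.OrthFour.HalfThree
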