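import Cfsg.Agent.MaxSub.OrthFour.Defs

/-!
Small facts for two sites over a field with three elements: the scalars, the index pairs, the half
turn in normal position, and the shape of the members of the monomial group.
-/

set_option autoImplicit false
set_option linter.unusedSectionVars false

namespace Cfsg.Agent.MaxSub.OrthFour.HalfThree

open Matrix Cfsg.Geo Cfsg.Agent.NotMax Cfsg.Agent.GeoClasses
open Cfsg.Agent.MaxSub.TensorPowSp (gV)
open Cfsg.Agent.MaxSub.OrthWreathBig (gB cr sieM)
open scoped MatrixGroups Matrix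

variable {F : Type*} [Field F]

/-- A field with three elements. -/
def Three (F : Type*) [Field F] : Prop := Nat.card F = 3

lemma Three.charThree (h3 : Three F) : (3 : F) = 0 := by
  have : Finite F := Nat.finite_of_card_ne_zero (by rw [h3]; decide)
  have : Fintype F := Fintype.ofFinite F
  have e := FiniteField.cast_card_eq_zero F
  rw [← Nat.card_eq_fintype_card, h3] at e
  exact_mod_cast e

lemma Three.charP (h3 : Three F) : CharP F 3 :=
  (CharP.charP_iff_prime_eq_zero (by decide)).2 (by exact_mod_cast h3.charThree)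

lemma Three.two (h3 : Three F) : (2 : F) = -1 := by linear_combination h3.charThree

lemma Three.two_ne (h3 : Three F) : (2 : F) ≠ 0 := by rw [h3.two]; exact neg_ne_zero.2 one_ne_zero

lemma Three.cases (h3 : Three F) (x : F) : x = 0 ∨ x = 1 ∨ x = -1 := by
  have : Finite F := Nat.finite_of_card_ne_zero (by rw [h3]; decide)
  have : Fintype F := Fintype.ofFinite F
  have e := FiniteField.pow_card x
  rw [← Nat.card_eq_fintype_card, h3] at e
  have : x * ((x - 1) * (x + 1)) = 0 := by linear_combination e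
  rcases mul_eq_zero.1 this with h | h
  · exact Or.inl h
  rcases mul_eq_zero.1 h with h | h
  · exact Or.inr (Or.inl (sub_eq_zero.1 h))
  · exact Or.inr (Or.inr (eq_neg_of_add_eq_zero_left h))

lemma Three.sq (h3 : Three F) {x : F} (hx : x ≠ 0) : x * x = 1 := by
  rcases h3.cases x with rfl | rfl | rfl
  · exact absurd rfl hx
  · exact mul_one 1
  · ring

lemma Three.delta (h3 : Three F) {δ : F} (hd : ¬ IsSquare δ) : δ = -1 := by
  rcases h3.cases δ with rfl | rfl | h
  · exact absurd IsSquare.zero hd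
  · exact absurd IsSquare.one hd
  · exact h

/-! ### Entries of two sites -/

lemma site_zero_apply (A : M4 F) (a b a' b' : Fin 4) :
    site (0 : Fin 2) A ![a, b] ![a', b'] = A a a' * (if b = b' then 1 else 0) := by
  simp [site, pureMat, Fin.prod_univ_two, Matrix.one_apply]

lemma site_one_apply' (B : M4 F) (a b a' b' : Fin 4) :
    site (1 : Fin 2) B ![a, b] ![a', b'] = (if a = a' then 1 else 0) * B b b' := by
  simp [site, pureMat, Fin.prod_univ_two, Matrix.one_apply]

lemma pair_apply (A B : M4 F) (a b a' b' : Fin 4) :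
    (site (0 : Fin 2) A * site (1 : Fin 2) B) ![a, b] ![a', b'] = A a a' * B b b' := by
  simp [site, pureMat_mul, pureMat, Fin.prod_univ_two]

lemma eq_pair (x : Fin 2 → Fin 4) : x = ![x 0, x 1] := by
  funext i; fin_cases i <;> rfl

lemma sum_pair {β : Type*} [AddCommMonoid β] (f : (Fin 2 → Fin 4) → β) :
    ∑ x, f x = ∑ b : Fin 4, ∑ a : Fin 4, f ![a, b] := by
  rw [← Equiv.sum_comp (finTwoArrowEquiv (Fin 4)).symm, Fintype.sum_prod_type, Finset.sum_comm]
  rfl

lemma ext_pair {X Y : MV F 2} (h : ∀ a b a' b', X ![a, b] ![a', b'] = Y ![a, b] ![a', b']) :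
    X = Y := by
  ext x y; rw [eq_pair x, eq_pair y]; exact h _ _ _ _

lemma trace_pair (A B : M4 F) :
    Matrix.trace (site (0 : Fin 2) A * site (1 : Fin 2) B) = Matrix.trace A * Matrix.trace B := by
  simp only [Matrix.trace, Matrix.diag_apply, sum_pair, pair_apply]
  rw [Finset.sum_comm, Finset.sum_mul_sum]

/-! ### The half turn in normal position -/

/-- Minus one on the first two coordinates. -/
def D4 : M4 F := Matrix.diagonal ![-1, -1, 1, 1]

/-- A quarter turn of the last two coordinates. -/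
def rot : M4 F := !![1, 0, 0, 0; 0, 1, 0, 0; 0, 0, 0, -1; 0, 0, 1, 0]

variable (F) in
/-- The half turn at the second site. -/
def jM : MV F 2 := site (1 : Fin 2) (D4 (F := F))

lemma jM_apply (a b a' b' : Fin 4) :
    jM F ![a, b] ![a', b'] =
      if a = a' ∧ b = b' then ![-1, -1, 1, 1] b else 0 := by
  rw [jM, site_one_apply', D4, Matrix.diagonal_apply]
  by_cases h : a = a' <;> by_cases k : b = b' <;> simp [h, k]

lemma D4_sq : D4 (F := F) * D4 = 1 := by
  rw [D4, Matrix.diagonal_mul_diagonal, ← Matrix.diagonal_one]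
  congr 1; funext i; fin_cases i <;> simp

lemma jM_sq : jM F * jM F = 1 := by rw [jM, site_mul, D4_sq, site_one]

lemma mul_jM (g : MV F 2) (x : Fin 2 → Fin 4) (a b : Fin 4) :
    (g * jM F) x ![a, b] = g x ![a, b] * ![-1, -1, 1, 1] b := by
  rw [Matrix.mul_apply, Finset.sum_eq_single (![a, b] : Fin 2 → Fin 4)]
  · simp [jM_apply]
  · intro y _ hy
    rw [eq_pair y, jM_apply, if_neg, mul_zero]
    rintro ⟨ha, hb⟩; exact hy (by rw [eq_pair y, ha, hb])
  · simp

lemma jM_mul (g : MV F 2) (x : Fin 2 → Fin 4) (a b : Fin 4) :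
    (jM F * g) ![a, b] x = ![-1, -1, 1, 1] b * g ![a, b] x := by
  rw [Matrix.mul_apply, Finset.sum_eq_single (![a, b] : Fin 2 → Fin 4)]
  · simp [jM_apply]
  · intro y _ hy
    rw [eq_pair y, jM_apply, if_neg, zero_mul]
    rintro ⟨ha, hb⟩; exact hy (by rw [eq_pair y, ← ha, ← hb])
  · simp

/-- Members commuting with the half turn respect its two eigenspaces. -/
lemma block_zero (h3 : Three F) {g : MV F 2} (hg : g * jM F = jM F * g) {b b' : Fin 4}
    (hb : 2 ≤ b) (hb' : b' < 2) (a a' : Fin 4) :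
    g ![a, b] ![a', b'] = 0 ∧ g ![a', b'] ![a, b] = 0 := by
  have e := congrFun (congrFun hg ![a, b]) ![a', b']
  have e' := congrFun (congrFun hg ![a', b']) ![a, b]
  rw [mul_jM, jM_mul] at e e'
  have v : (![-1, -1, 1, 1] : Fin 4 → F) b = 1 := by fin_cases b <;> simp_all
  have v' : (![-1, -1, 1, 1] : Fin 4 → F) b' = -1 := by fin_cases b' <;> simp_all
  rw [v, v'] at e e'
  exact ⟨(mul_eq_zero.1 (by linear_combination e : g ![a, b] ![a', b'] * (-2) = 0)).resolve_right
      (neg_ne_zero.2 h3.two_ne),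
    (mul_eq_zero.1 (by linear_combination e' : g ![a', b'] ![a, b] * 2 = 0)).resolve_right h3.two_ne⟩

/-! ### The quarter turn -/

variable (F) in
/-- The quarter turn at the second site. -/
def rM : MV F 2 := site (1 : Fin 2) (rot (F := F))

lemma mul_rM (g : MV F 2) (x : Fin 2 → Fin 4) (a : Fin 4) :
    (g * rM F) x ![a, 2] = g x ![a, 3] ∧ (g * rM F) x ![a, 3] = -g x ![a, 2] := by
  constructor <;>
  · rw [Matrix.mul_apply, sum_pair]
    simp [rM, site_one_apply', rot, Fin.sum_univ_four]

lemma rM_mul (g : MV F 2) (x : Fin 2 → Fin 4) (a : Fin 4) :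
    (rM F * g) ![a, 2] x = -g ![a, 3] x ∧ (rM F * g) ![a, 3] x = g ![a, 2] x := by
  constructor <;>
  · rw [Matrix.mul_apply, sum_pair]
    simp [rM, site_one_apply', rot, Fin.sum_univ_four]

lemma quarter {g : MV F 2} (hg : g * rM F = rM F * g) (a a' : Fin 4) :
    g ![a, 3] ![a', 3] = g ![a, 2] ![a', 2] ∧ g ![a, 2] ![a', 3] = -g ![a, 3] ![a', 2] := by
  have e := congrFun (congrFun hg ![a, 3]) ![a', 2]
  have e' := congrFun (congrFun hg ![a, 2]) ![a', 2]
  rw [(mul_rM g _ _).1, (rM_mul g _ _).2] at e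
  rw [(mul_rM g _ _).1, (rM_mul g _ _).1] at e'
  exact ⟨e, e'⟩

end Cfsg.Agent.MaxSub.OrthFour.HalfThree
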