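import Cfsg.Agent.MaxSub.OrthFour.HalfThree.Elements

/-!
The elements centralising the normal half turn and fixing one of its eigenspaces.
-/

set_option autoImplicit false
set_option linter.unusedSectionVars false
set_option linter.unusedSimpArgs false
set_option linter.unnecessarySeqFocus false

namespace Cfsg.Agent.MaxSub.OrthFour.HalfThree

open Matrix Cfsg.Geo Cfsg.Agent.NotMax Cfsg.Agent.GeoClasses
open Cfsg.Agent.MaxSub.TensorPowSp (gV)
open Cfsg.Agent.MaxSub.OrthWreathBig (gB)
open scoped MatrixGroups Matrix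

variable {F : Type*} [Field F] [Finite F] {δ : F} {M : Subgroup (GV F 2)}

/-- The members fixing pointwise an eigenspace of a half turn act at one site. -/
def KernelLe (δ : F) (M : Subgroup (GV F 2)) : Prop :=
  ∀ x ∈ M, ∀ (i : Fin 2) r s, gB (G4 δ) r r ≠ 0 → gB (G4 δ) s s ≠ 0 → gB (G4 δ) r s = 0 →
    (x : MV F 2) = site i (reflW δ r * reflW δ s) → ∀ g ∈ M,
    (g : MV F 2) * (x : MV F 2) = (x : MV F 2) * (g : MV F 2) →
    (g : MV F 2) * (1 + (x : MV F 2)) = 1 + (x : MV F 2) → ∃ A, (g : MV F 2) = site i A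

/-- The centraliser of the normal half turn in the group. -/
def cenJ (M : Subgroup (GV F 2)) : Subgroup (GV F 2) where
  carrier := {g | g ∈ M ∧ Commute (g : MV F 2) (jM F)}
  one_mem' := ⟨M.one_mem, by rw [Units.val_one]; exact Commute.one_left _⟩
  mul_mem' := fun {x y} hx hy => ⟨M.mul_mem hx.1 hy.1, by rw [Units.val_mul]; exact hx.2.mul_left hy.2⟩
  inv_mem' := fun {x} hx => ⟨M.inv_mem hx.1, hx.2.units_inv_left⟩

lemma mem_cenJ {g : GV F 2} : g ∈ cenJ M ↔ g ∈ M ∧ (g : MV F 2) * jM F = jM F * g := Iff.rfl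

lemma iso_D4 (h3 : Three F) : IsoW δ (D4 : M4 F) :=
  iso_diag (fun _ => h3.sq) _ (by intro i; fin_cases i <;> simp)

lemma det_D4 : (D4 : M4 F).det = 1 := by simp [D4, Matrix.det_diagonal, Fin.prod_univ_four]

lemma iso_rot : IsoW δ (rot : M4 F) := by
  unfold IsoW
  ext i j
  fin_cases i <;> fin_cases j <;>
    simp [G4, wt, rot, Matrix.mul_apply, Fin.sum_univ_four, Matrix.diagonal_apply]

lemma det_rot : (rot : M4 F).det = 1 := by simp [rot, Matrix.det_succ_row_zero, Fin.sum_univ_succ]

lemma isoW_of_isoV (hd : ¬ IsSquare δ) {A : M4 F} (h : IsoV δ (site (1 : Fin 2) A)) : IsoW δ A := by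
  refine Matrix.ext fun b b' => ?_
  have e := congrFun (congrFun h ![1, b]) ![1, b']
  rw [gV_diag, mul_assoc, Matrix.mul_apply, sum_pair] at e
  simp only [Matrix.diagonal_mul, Matrix.transpose_apply, site_one_apply', Matrix.diagonal_apply] at e
  simp [Fin.prod_univ_two, wt, Fin.sum_univ_four] at e
  simp only [G4, Matrix.mul_apply, Matrix.transpose_apply, Matrix.diagonal_apply, Fin.sum_univ_four]
  fin_cases b <;> fin_cases b' <;> simp [wt] at e ⊢ <;> linear_combination e

lemma det_of_mem (h : Over δ M) {A : M4 F} {g : GV F 2} (hg : g ∈ M)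
    (e : (g : MV F 2) = site 1 A) : A.det = 1 := by
  have hA : IsoW δ A := isoW_of_isoV h.nsq (e ▸ h.isoV hg)
  have := (pair_mem_Om_iff h.two h.nsq iso_one hA (by rw [e, site_one, one_mul])).1 (h.le hg)
  simpa using this.symm

/-- The four entries of a block of an isometry. -/
lemma block_iso (hd : ¬ IsSquare δ) {A : M4 F} (hA : IsoW δ A) (b b' : Fin 4) :
    ∑ c, wt δ c * (A c b * A c b') = if b = b' then wt δ b else 0 := by
  have e := congrFun (congrFun hA b) b'
  rw [G4, Matrix.diagonal_apply, mul_assoc, Matrix.mul_apply] at e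
  simp only [Matrix.diagonal_mul, Matrix.transpose_apply] at e
  rw [← e]
  exact Finset.sum_congr rfl fun c _ => by ring

/-- Fixing the space of the eigenvalue one. -/
theorem kernel_plus (h3 : Three F) (h : Over δ M) (hk : KernelLe δ M) {g : GV F 2} (hg : g ∈ cenJ M)
    (e : (g : MV F 2) * (1 + jM F) = 1 + jM F) : (g : MV F 2) = 1 ∨ (g : MV F 2) = jM F := by
  obtain ⟨hgM, hgj⟩ := mem_cenJ.1 hg
  have hJ := pairGL_mem h iso_one (iso_D4 h3) (by rw [det_one, det_D4])
  have hJv : (pairGL h.nsq iso_one (iso_D4 h3) : MV F 2) = jM F := by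
    rw [pairGL_val, site_one, one_mul, jM]
  have d := (D4_refl h3 h.nsq).1
  obtain ⟨A, hA⟩ := hk _ hJ.1 1 (Pi.single 0 1) (Pi.single 1 1)
    (by simp [single_gB, wt_ne_zero h.nsq]) (by simp [single_gB, wt_ne_zero h.nsq])
    (by simp [single_gB]) (by rw [hJv, jM, d]) g hgM (by rw [hJv]; exact hgj) (by rw [hJv]; exact e)
  have hiso : IsoW δ A := isoW_of_isoV h.nsq (hA ▸ h.isoV hgM)
  have hdet := det_of_mem h hgM hA
  have col : ∀ b c : Fin 4, 2 ≤ c → A b c = if b = c then 1 else 0 := by
    intro b c hc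
    have v : (![-1, -1, 1, 1] : Fin 4 → F) c = 1 := by fin_cases c <;> simp_all
    have e' := congrFun (congrFun e ![1, b]) ![1, c]
    rw [mul_add, mul_one, Matrix.add_apply, Matrix.add_apply, mul_jM, jM_apply, hA, site_one_apply',
      v, mul_one, Matrix.one_apply] at e'
    by_cases hbc : b = c
    · subst hbc
      simp [v] at e' ⊢
      have : (A b b - 1) * 2 = 0 := by linear_combination e'
      exact sub_eq_zero.1 ((mul_eq_zero.1 this).resolve_right h3.two_ne)
    · have hne : (![1, b] : Fin 2 → Fin 4) ≠ ![1, c] := fun h => hbc (congrFun h 1)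
      simp [hbc, hne] at e' ⊢
      have : A b c * 2 = 0 := by linear_combination e'
      exact (mul_eq_zero.1 this).resolve_right h3.two_ne
  have low : ∀ b c : Fin 4, 2 ≤ b → c < 2 → A b c = 0 := by
    intro b c hb hc
    have := (block_zero h3 hgj hb hc 1 1).1
    rwa [hA, site_one_apply', if_pos rfl, one_mul] at this
  have hc : A = !![A 0 0, A 0 1, 0, 0; A 1 0, A 1 1, 0, 0; 0, 0, 1, 0; 0, 0, 0, 1] := by
    ext b c; fin_cases b <;> fin_cases c <;> simp [col, low]
  have e00 := block_iso h.nsq hiso 0 0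
  have e01 := block_iso h.nsq hiso 0 1
  simp [Fin.sum_univ_four, wt, h3.delta h.nsq, low 2 0 le_rfl (by decide), low 3 0 (by decide) (by decide),
    low 2 1 le_rfl (by decide), low 3 1 (by decide) (by decide)] at e00 e01
  rw [hc] at hdet
  simp [Matrix.det_succ_row_zero, Fin.sum_univ_succ] at hdet
  have a0 : A 0 0 ≠ 0 := by
    intro z
    rcases h3.cases (A 1 0) with w | w | w <;> rw [z, w] at e00
    · simp at e00
    all_goals exact h3.two_ne (by linear_combination e00)
  have c0 : A 1 0 = 0 := by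
    rcases h3.cases (A 1 0) with w | w | w
    · exact w
    all_goals
      exfalso
      rw [h3.sq a0, w] at e00
      exact one_ne_zero (α := F) (by linear_combination e00)
  rw [c0] at e01 hdet
  have b0 : A 0 1 = 0 := by
    have : A 0 0 * A 0 1 = 0 := by linear_combination -e01
    exact (mul_eq_zero.1 this).resolve_left a0
  have d0 : A 1 1 = A 0 0 := by linear_combination A 0 0 * hdet - A 1 1 * h3.sq a0
  rw [c0, b0, d0] at hc
  rcases (h3.cases (A 0 0)).resolve_left a0 with a1 | a1 <;> rw [a1] at hc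
  · left; rw [hA, hc, ← site_one (F := F) (t := 2) (k := 4) 1]; congr 1
    ext b c; fin_cases b <;> fin_cases c <;> simp
  · right; rw [hA, hc, jM]; congr 1
    ext b c; fin_cases b <;> fin_cases c <;> simp [D4]

/-- Fixing the space of the eigenvalue minus one. -/
theorem kernel_minus (h3 : Three F) (h : Over δ M) (hk : KernelLe δ M) {g : GV F 2} (hg : g ∈ cenJ M)
    (e : (g : MV F 2) * (1 - jM F) = 1 - jM F) :
    (g : MV F 2) = 1 ∨ (g : MV F 2) = rM F * rM F ∨ (g : MV F 2) = rM F ∨
      (g : MV F 2) = rM F * rM F * rM F := by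
  obtain ⟨hgM, hgj⟩ := mem_cenJ.1 hg
  have hJ := pairGL_mem h iso_one (iso_neg (iso_D4 (δ := δ) h3))
    (by rw [det_one, det_neg, det_D4]; norm_num)
  have hJv : (pairGL h.nsq iso_one (iso_neg (iso_D4 (δ := δ) h3)) : MV F 2) = -jM F := by
    rw [pairGL_val, site_one, one_mul, jM, OrthWreathBig.site_neg]
  have d := (D4_refl h3 h.nsq).2
  obtain ⟨A, hA⟩ := hk _ hJ.1 1 (Pi.single 2 1) (Pi.single 3 1)
    (by simp [single_gB, wt_ne_zero h.nsq]) (by simp [single_gB, wt_ne_zero h.nsq])
    (by simp [single_gB]) (by rw [hJv, jM, ← OrthWreathBig.site_neg, d]) g hgM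
    (by rw [hJv, mul_neg, neg_mul, hgj]) (by rw [hJv, ← sub_eq_add_neg]; exact e)
  have hiso : IsoW δ A := isoW_of_isoV h.nsq (hA ▸ h.isoV hgM)
  have hdet := det_of_mem h hgM hA
  have col : ∀ b c : Fin 4, c < 2 → A b c = if b = c then 1 else 0 := by
    intro b c hc
    have v : (![-1, -1, 1, 1] : Fin 4 → F) c = -1 := by fin_cases c <;> simp_all
    have e' := congrFun (congrFun e ![1, b]) ![1, c]
    rw [mul_sub, mul_one, Matrix.sub_apply, Matrix.sub_apply, mul_jM, jM_apply, hA, site_one_apply',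
      v, Matrix.one_apply] at e'
    by_cases hbc : b = c
    · subst hbc
      simp [v] at e' ⊢
      have : (A b b - 1) * 2 = 0 := by linear_combination e'
      exact sub_eq_zero.1 ((mul_eq_zero.1 this).resolve_right h3.two_ne)
    · have hne : (![1, b] : Fin 2 → Fin 4) ≠ ![1, c] := fun h => hbc (congrFun h 1)
      simp [hbc, hne] at e' ⊢
      have : A b c * 2 = 0 := by linear_combination e'
      exact (mul_eq_zero.1 this).resolve_right h3.two_ne
  have up : ∀ b c : Fin 4, b < 2 → 2 ≤ c → A b c = 0 := by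
    intro b c hb hc
    have := (block_zero h3 hgj hc hb 1 1).2
    rwa [hA, site_one_apply', if_pos rfl, one_mul] at this
  have hc : A = !![1, 0, 0, 0; 0, 1, 0, 0; 0, 0, A 2 2, A 2 3; 0, 0, A 3 2, A 3 3] := by
    ext b c; fin_cases b <;> fin_cases c <;> simp [col, up]
  have e22 := block_iso h.nsq hiso 2 2
  have e23 := block_iso h.nsq hiso 2 3
  simp [Fin.sum_univ_four, wt, h3.delta h.nsq, up 0 2 (by decide) le_rfl, up 1 2 (by decide) le_rfl,
    up 0 3 (by decide) (by decide), up 1 3 (by decide) (by decide)] at e22 e23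
  rw [hc] at hdet
  simp [Matrix.det_succ_row_zero, Fin.sum_univ_succ] at hdet
  by_cases a0 : A 2 2 = 0
  · rw [a0] at e22 e23 hdet hc
    have cne : A 3 2 ≠ 0 := fun z => by rw [z] at e22; simp at e22
    have d0 : A 3 3 = 0 := by
      have : A 3 2 * A 3 3 = 0 := by linear_combination e23
      exact (mul_eq_zero.1 this).resolve_left cne
    rw [d0] at hdet hc
    have b0 : A 2 3 = -A 3 2 := by linear_combination -(A 3 2) * hdet - A 2 3 * h3.sq cne
    rw [b0] at hc
    rcases (h3.cases (A 3 2)).resolve_left cne with c1 | c1 <;> rw [c1] at hc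
    · right; right; left; rw [hA, hc, rM]; congr 1
    · right; right; right; rw [hA, hc, rM, site_mul, site_mul]; congr 1
      ext b c; fin_cases b <;> fin_cases c <;> simp [rot, Matrix.mul_apply, Fin.sum_univ_four]
  · have c0 : A 3 2 = 0 := by
      rcases h3.cases (A 3 2) with w | w | w
      · exact w
      all_goals
        exfalso
        rw [h3.sq a0, w] at e22
        exact one_ne_zero (α := F) (by linear_combination e22)
    rw [c0] at e23 hdet hc
    have b0 : A 2 3 = 0 := by
      have : A 2 2 * A 2 3 = 0 := by linear_combination e23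
      exact (mul_eq_zero.1 this).resolve_left a0
    have d0 : A 3 3 = A 2 2 := by linear_combination A 2 2 * hdet - A 3 3 * h3.sq a0
    rw [b0, d0] at hc
    rcases (h3.cases (A 2 2)).resolve_left a0 with a1 | a1 <;> rw [a1] at hc
    · left; rw [hA, hc, ← site_one (F := F) (t := 2) (k := 4) 1]; congr 1
      ext b c; fin_cases b <;> fin_cases c <;> simp
    · right; left; rw [hA, hc, rM, site_mul]; congr 1
      ext b c; fin_cases b <;> fin_cases c <;> simp [rot, Matrix.mul_apply, Fin.sum_univ_four]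

end Cfsg.Agent.MaxSub.OrthFour.HalfThree
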