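import Cfsg.Agent.MaxSub.OrthFour.HalfThree.Local
import Cfsg.Agent.MaxSub.OrthFour.HalfThree.Counting
import Cfsg.Agent.MaxSub.OrthFour.EGen

/-!
Members of the centraliser of the normal half turn inside the monomial group: the root group of one
site, a group of order a power of two and an element of order five.
-/

set_option autoImplicit false
set_option linter.unusedSectionVars false
set_option linter.unusedSimpArgs false
set_option linter.unnecessarySeqFocus false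

namespace Cfsg.Agent.MaxSub.OrthFour.HalfThree

open Matrix Cfsg.Geo Cfsg.Agent.NotMax Cfsg.Agent.GeoClasses
open Cfsg.Agent.MaxSub.OrthWreathBig (gB)
open scoped MatrixGroups Matrix

variable {F : Type*} [Field F] [Finite F] {δ : F} {M : Subgroup (GV F 2)}

/-- A diagonal matrix of signs. -/
def dsg (v : Fin 4 → ℤˣ) : M4 F := Matrix.diagonal fun i => ((v i : ℤ) : F)

lemma dsg_mul (v w : Fin 4 → ℤˣ) : dsg (F := F) v * dsg w = dsg (v * w) := by
  simp [dsg, Matrix.diagonal_mul_diagonal]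

lemma dsg_one : dsg (F := F) 1 = 1 := by simp [dsg]

lemma iso_dsg (h3 : Three F) (v : Fin 4 → ℤˣ) : IsoW δ (dsg v : M4 F) :=
  iso_diag (fun _ => h3.sq) _ fun i => by
    rcases Int.units_eq_one_or (v i) with h | h <;> simp [h]

lemma det_dsg (v : Fin 4 → ℤˣ) : (dsg v : M4 F).det = (((∏ i, v i : ℤˣ) : ℤ) : F) := by
  simp [dsg, Matrix.det_diagonal, Units.coe_prod]

lemma dsg_D4 (v : Fin 4 → ℤˣ) : dsg v * (D4 : M4 F) = D4 * dsg v := by
  simp [dsg, D4, Matrix.diagonal_mul_diagonal, mul_comm]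

/-- The exchange of the third and fourth coordinates. -/
def sw4 : M4 F := !![1, 0, 0, 0; 0, 1, 0, 0; 0, 0, 0, 1; 0, 0, 1, 0]

lemma iso_sw4 : IsoW δ (sw4 : M4 F) := by
  unfold IsoW
  ext i j
  fin_cases i <;> fin_cases j <;>
    simp [G4, wt, sw4, Matrix.mul_apply, Fin.sum_univ_four, Matrix.diagonal_apply]

lemma det_sw4 : (sw4 : M4 F).det = -1 := by simp [sw4, Matrix.det_succ_row_zero, Fin.sum_univ_succ]

lemma sw4_sq : (sw4 : M4 F) * sw4 = 1 := by
  ext i j; fin_cases i <;> fin_cases j <;> simp [sw4, Matrix.mul_apply, Fin.sum_univ_four]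

lemma sw4_dsg (v : Fin 4 → ℤˣ) : (sw4 : M4 F) * dsg v = dsg ![v 0, v 1, v 3, v 2] * sw4 := by
  ext i j; fin_cases i <;> fin_cases j <;> simp [sw4, dsg, Matrix.mul_apply, Fin.sum_univ_four]

lemma sw4_D4 : (sw4 : M4 F) * D4 = D4 * sw4 := by
  ext i j; fin_cases i <;> fin_cases j <;> simp [sw4, D4, Matrix.mul_apply, Fin.sum_univ_four]

/-- The member given by two isometries lies in the monomial part of the centraliser. -/
lemma pairGL_mem_cenJ (h : Over δ M) {A B : M4 F} (hA : IsoW δ A) (hB : IsoW δ B) (e : A.det = B.det)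
    (hj : B * D4 = D4 * B) : pairGL h.nsq hA hB ∈ cenJ M ⊓ Wr F 2 := by
  refine ⟨mem_cenJ.2 ⟨(pairGL_mem h hA hB e).1, ?_⟩, (pairGL_mem h hA hB e).2⟩
  rw [pairGL_val, jM, mul_assoc, site_mul, hj, ← site_mul, ← mul_assoc,
    site_comm (show (0 : Fin 2) ≠ 1 by decide), mul_assoc]

lemma pairGL_mul (hd : ¬ IsSquare δ) {A B A' B' : M4 F} (hA : IsoW δ A) (hB : IsoW δ B)
    (hA' : IsoW δ A') (hB' : IsoW δ B') :
    pairGL hd hA hB * pairGL hd hA' hB' = pairGL hd (iso_mul hA hA') (iso_mul hB hB') := by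
  refine Units.ext ?_
  rw [Units.val_mul, pairGL_val, pairGL_val, pairGL_val, mul_assoc, ← mul_assoc (site 1 B),
    ← site_comm (show (0 : Fin 2) ≠ 1 by decide), mul_assoc, site_mul, ← mul_assoc, site_mul]

lemma pairGL_congr (hd : ¬ IsSquare δ) {A B A' B' : M4 F} (hA : IsoW δ A) (hB : IsoW δ B)
    (hA' : IsoW δ A') (hB' : IsoW δ B') (e : A = A') (f : B = B') :
    pairGL hd hA hB = pairGL hd hA' hB' := by subst e f; rfl

/-- The diagonal members. -/
noncomputable def dHom (h3 : Three F) (hd : ¬ IsSquare δ) : (Fin 4 → ℤˣ) × (Fin 4 → ℤˣ) →* GV F 2 where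
  toFun p := pairGL hd (iso_dsg h3 p.1) (iso_dsg h3 p.2)
  map_one' := Units.ext (by simp [pairGL_val, dsg_one, site_one])
  map_mul' p q := by
    rw [pairGL_mul]
    exact pairGL_congr hd _ _ _ _ (dsg_mul _ _).symm (dsg_mul _ _).symm

lemma dHom_diag (h3 : Three F) (hd : ¬ IsSquare δ) (p : (Fin 4 → ℤˣ) × (Fin 4 → ℤˣ)) (a b : Fin 4) :
    (dHom h3 hd p : MV F 2) ![a, b] ![a, b] = ((p.1 a : ℤ) : F) * ((p.2 b : ℤ) : F) := by
  show (pairGL hd (iso_dsg h3 p.1) (iso_dsg h3 p.2) : MV F 2) _ _ = _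
  rw [pairGL_val, pair_apply]
  simp [dsg]

lemma dHom_off (h3 : Three F) (hd : ¬ IsSquare δ) (p : (Fin 4 → ℤˣ) × (Fin 4 → ℤˣ)) {a b a' b' : Fin 4}
    (hne : a ≠ a' ∨ b ≠ b') : (dHom h3 hd p : MV F 2) ![a, b] ![a', b'] = 0 := by
  show (pairGL hd (iso_dsg h3 p.1) (iso_dsg h3 p.2) : MV F 2) _ _ = _
  rw [pairGL_val, pair_apply]
  rcases hne with h | h <;> simp [dsg, h]

lemma cast_units_inj (h3 : Three F) {u v : ℤˣ} (h : ((u : ℤ) : F) = ((v : ℤ) : F)) : u = v := by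
  have ne : (1 : F) ≠ -1 := fun e => h3.two_ne (by linear_combination e)
  rcases Int.units_eq_one_or u with rfl | rfl <;> rcases Int.units_eq_one_or v with rfl | rfl <;>
    simp at h <;> first | rfl | exact absurd h ne | exact absurd h.symm ne

/-- A power of two dividing the order of the monomial part of the centraliser. -/
theorem dvd_two_part (h3 : Three F) (h : Over δ M) :
    256 ∣ Nat.card (cenJ M ⊓ Wr F 2 : Subgroup (GV F 2)) := by
  set H := cenJ M ⊓ Wr F 2 with hH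
  set φ := dHom (δ := δ) h3 h.nsq with hφ
  set N := φ.range ⊓ H with hN
  have memH : ∀ p : (Fin 4 → ℤˣ) × (Fin 4 → ℤˣ), (∏ i, p.1 i) = ∏ i, p.2 i → φ p ∈ H := fun p e =>
    pairGL_mem_cenJ h _ _ (by rw [det_dsg, det_dsg, e]) (dsg_D4 _)
  -- the diagonal part has order at least sixty four and is a two group
  let ι : (Fin 6 → ℤˣ) → N := fun x =>
    ⟨φ (![x 0, x 1, x 2, x 0 * x 1 * x 2 * (x 3 * x 4 * x 5)], ![x 3, x 4, x 5, 1]), ⟨_, rfl⟩,
      memH _ (by
        simp only [Fin.prod_univ_four, Matrix.cons_val_zero, Matrix.cons_val_one, Matrix.cons_val,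
          mul_one]
        rw [← mul_assoc, Int.units_mul_self, one_mul])⟩
  have hι : Function.Injective ι := by
    intro x y e
    have e' := congrArg (fun g : N => ((g : GV F 2) : MV F 2)) e
    have d : ∀ a b : Fin 4, _ := fun a b => congrFun (congrFun e' ![a, b]) ![a, b]
    simp only [ι, hφ, dHom_diag] at d
    have p0 := cast_units_inj h3 (by simpa using d 0 3 : ((x 0 : ℤ) : F) = ((y 0 : ℤ) : F))
    have p1 := cast_units_inj h3 (by simpa using d 1 3 : ((x 1 : ℤ) : F) = ((y 1 : ℤ) : F))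
    have p2 := cast_units_inj h3 (by simpa using d 2 3 : ((x 2 : ℤ) : F) = ((y 2 : ℤ) : F))
    have u0 : ((y 0 : ℤ) : F) ≠ 0 := by rcases Int.units_eq_one_or (y 0) with h | h <;> simp [h]
    have p3 : x 3 = y 3 := cast_units_inj h3 (mul_left_cancel₀ u0 (by simpa [p0] using d 0 0))
    have p4 : x 4 = y 4 := cast_units_inj h3 (mul_left_cancel₀ u0 (by simpa [p0] using d 0 1))
    have p5 : x 5 = y 5 := cast_units_inj h3 (mul_left_cancel₀ u0 (by simpa [p0] using d 0 2))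
    funext i; fin_cases i <;> assumption
  have hge : 64 ≤ Nat.card N := by
    have := Nat.card_le_card_of_injective ι hι
    simpa [Nat.card_eq_fintype_card (α := Fin 6 → ℤˣ)] using this
  have h64 : 64 ∣ Nat.card N := by
    have hd : Nat.card N ∣ 2 ^ 8 := by
      refine (Subgroup.card_dvd_of_le (inf_le_left : N ≤ φ.range)).trans ?_
      refine (Subgroup.card_range_dvd φ).trans ?_
      simp [Nat.card_eq_fintype_card]
    obtain ⟨j, hj, e⟩ := (Nat.dvd_prime_pow Nat.prime_two).1 hd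
    rw [e] at hge ⊢
    exact pow_dvd_pow 2 (show 6 ≤ j by
      by_contra hlt
      have : 2 ^ j ≤ 2 ^ 5 := Nat.pow_le_pow_right (by decide) (by omega)
      omega)
  -- two further involutions
  have hd4 : (dsg ![-1, 1, 1, 1] : M4 F).det = -1 := by simp [det_dsg, Fin.prod_univ_four]
  set a0 := pairGL h.nsq (iso_sw4 (F := F)) (iso_dsg h3 ![-1, 1, 1, 1]) with ha0
  set a1 := pairGL h.nsq (iso_dsg h3 ![-1, 1, 1, 1]) (iso_sw4 (F := F)) with ha1
  have m0 : a0 ∈ H := pairGL_mem_cenJ h _ _ (by rw [det_sw4, hd4]) (dsg_D4 _)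
  have m1 : a1 ∈ H := pairGL_mem_cenJ h _ _ (by rw [det_sw4, hd4]) sw4_D4
  have sqd : (dsg ![-1, 1, 1, 1] : M4 F) * dsg ![-1, 1, 1, 1] = 1 := by
    rw [dsg_mul, ← dsg_one]; congr 1; funext i; exact Int.units_mul_self _
  have s0 : a0 * a0 = 1 := by
    rw [ha0, pairGL_mul]; exact Units.ext (by simp [pairGL_val, sw4_sq, sqd, site_one])
  have s1 : a1 * a1 = 1 := by
    rw [ha1, pairGL_mul]; exact Units.ext (by simp [pairGL_val, sw4_sq, sqd, site_one])
  have c01 : a0 * a1 = a1 * a0 := by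
    rw [ha0, ha1, pairGL_mul, pairGL_mul]
    refine pairGL_congr _ _ _ _ _ ?_ ?_
    · exact (sw4_dsg _).trans (by congr 2)
    · exact ((sw4_dsg _).trans (by congr 2)).symm
  have n0 : ∀ n ∈ N, a0 * n * a0⁻¹ ∈ N := by
    rintro _ ⟨⟨⟨u, v⟩, rfl⟩, hn⟩
    refine ⟨⟨(![u 0, u 1, u 3, u 2], v), ?_⟩, H.mul_mem (H.mul_mem m0 hn) (H.inv_mem m0)⟩
    rw [eq_mul_inv_iff_mul_eq]
    show pairGL _ _ _ * _ = _ * pairGL _ _ _
    rw [ha0, pairGL_mul, pairGL_mul]
    refine pairGL_congr _ _ _ _ _ (sw4_dsg u).symm ?_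
    rw [dsg_mul, dsg_mul, mul_comm]
  have n1 : ∀ n ∈ N, a1 * n * a1⁻¹ ∈ N := by
    rintro _ ⟨⟨⟨u, v⟩, rfl⟩, hn⟩
    refine ⟨⟨(u, ![v 0, v 1, v 3, v 2]), ?_⟩, H.mul_mem (H.mul_mem m1 hn) (H.inv_mem m1)⟩
    rw [eq_mul_inv_iff_mul_eq]
    show pairGL _ _ _ * _ = _ * pairGL _ _ _
    rw [ha1, pairGL_mul, pairGL_mul]
    refine pairGL_congr _ _ _ _ _ ?_ (sw4_dsg v).symm
    rw [dsg_mul, dsg_mul, mul_comm]
  have off : ∀ n ∈ N, ∀ {a b a' b' : Fin 4}, (a ≠ a' ∨ b ≠ b') →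
      (n : MV F 2) ![a, b] ![a', b'] = 0 := by
    rintro _ ⟨⟨p, rfl⟩, -⟩ a b a' b' hne
    exact dHom_off h3 h.nsq p hne
  have e0 : (a0 : MV F 2) ![2, 1] ![3, 1] = 1 := by
    rw [ha0, pairGL_val, pair_apply]; simp [sw4, dsg]
  have e1 : (a1 : MV F 2) ![1, 2] ![1, 3] = 1 := by
    rw [ha1, pairGL_val, pair_apply]; simp [sw4, dsg]
  have e10 : ((a1 * a0 : GV F 2) : MV F 2) ![2, 2] ![3, 3] = 1 := by
    rw [ha0, ha1, pairGL_mul, pairGL_val, pair_apply]
    simp [sw4, dsg, Matrix.mul_apply, Fin.sum_univ_four]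
  have x0 : a0 ∉ N := fun hm => one_ne_zero (e0.symm.trans (off a0 hm (Or.inl (by decide))))
  obtain ⟨N1, hN1, c1⟩ := double N n0 s0 x0
  have x1 : a1 ∉ N1 := by
    intro hm
    rcases (hN1 a1).1 hm with hm | hm
    · exact one_ne_zero (e1.symm.trans (off a1 hm (Or.inr (by decide))))
    · exact one_ne_zero (e10.symm.trans (off _ hm (Or.inl (by decide))))
  obtain ⟨N2, hN2, c2⟩ := double N1 (a := a1) (fun n hn => by
    rw [hN1] at hn ⊢
    rcases hn with hn | hn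
    · exact Or.inl (n1 n hn)
    · refine Or.inr ?_
      have := n1 _ hn
      have i1 : a1⁻¹ = a1 := inv_eq_of_mul_eq_one_right s1
      rw [i1] at this ⊢
      rwa [show a1 * (n * a0) * a1 = a1 * n * (a0 * a1) by group, c01, ← mul_assoc] at this) s1 x1
  have le2 : N2 ≤ H := by
    have le1 : N1 ≤ H := by
      intro g hg
      rcases (hN1 g).1 hg with hg | hg
      · exact (inf_le_right : N ≤ H) hg
      · simpa using H.mul_mem ((inf_le_right : N ≤ H) hg) (H.inv_mem m0)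
    intro g hg
    rcases (hN2 g).1 hg with hg | hg
    · exact le1 hg
    · simpa using H.mul_mem (le1 hg) (H.inv_mem m1)
  refine dvd_trans ?_ (Subgroup.card_dvd_of_le le2)
  rw [c2, c1]
  exact (show (256 : ℕ) = 64 * 2 * 2 by rfl) ▸ mul_dvd_mul (mul_dvd_mul h64 dvd_rfl) (dvd_refl 2)

end Cfsg.Agent.MaxSub.OrthFour.HalfThree
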