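import Cfsg.Agent.MaxSub.OrthFour.HalfThree.Sub
import Cfsg.Agent.MaxSub.OrthFour.HalfThree.Cert

/-!
The certificate over any field with three elements.
-/

set_option autoImplicit false
set_option linter.unusedSectionVars false
set_option linter.unusedSimpArgs false

namespace Cfsg.Agent.MaxSub.OrthFour.HalfThree

open Matrix Cfsg.Geo Cfsg.Agent.NotMax Cfsg.Agent.GeoClasses
open Cfsg.Agent.MaxSub.OrthWreathBig (gB sieM cr)
open scoped MatrixGroups Matrix

variable {F : Type*} [Field F] {δ : F}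

/-- The inclusion of the prime field. -/
noncomputable def em (h3 : Three F) : ZMod 3 →+* F :=
  haveI := h3.charP
  ZMod.castHom (dvd_refl 3) F

/-- A matrix over the prime field as a matrix over the field. -/
noncomputable def up (h3 : Three F) : Cert.Z4 →+* M4 F := (em h3).mapMatrix

lemma up_apply (h3 : Three F) (A : Cert.Z4) (i j : Fin 4) : up h3 A i j = em h3 (A i j) := rfl

lemma em_w4 (h3 : Three F) (hd : ¬ IsSquare δ) (i : Fin 4) : em h3 (Cert.w4 i) = wt δ i := by
  have e2 : em h3 2 = δ := by rw [map_ofNat, h3.two, h3.delta hd]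
  fin_cases i <;> simp [Cert.w4, wt, e2]

lemma em_b4 (h3 : Three F) (hd : ¬ IsSquare δ) (x y : Fin 4 → ZMod 3) :
    em h3 (Cert.b4 x y) = gB (G4 δ) (em h3 ∘ x) (em h3 ∘ y) := by
  have e2 : em h3 2 = δ := by rw [map_ofNat, h3.two, h3.delta hd]
  simp [Cert.b4, gB_diag, e2]

lemma iso_up (h3 : Three F) (hd : ¬ IsSquare δ) {A : Cert.Z4} (h : A.transpose * Cert.gM * A = Cert.gM) :
    IsoW δ (up h3 A) := by
  have eg : up h3 Cert.gM = G4 δ := by
    ext i j
    rw [up_apply, Cert.gM, G4, Matrix.diagonal_apply, Matrix.diagonal_apply]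
    split_ifs
    · exact em_w4 h3 hd i
    · exact map_zero _
  have e := congrArg (up h3) h
  rw [map_mul, map_mul, eg] at e
  exact e

lemma det_up (h3 : Three F) {A : Cert.Z4} (h : A.det = 1) : (up h3 A).det = 1 := by
  rw [show (up h3 A).det = em h3 A.det from (RingHom.map_det _ A).symm, h, map_one]

lemma up_uM (h3 : Three F) (hd : ¬ IsSquare δ) (u y : Fin 4 → ZMod 3) :
    up h3 (Cert.uM u y) = 1 + sieM (G4 δ) (em h3 ∘ u) (em h3 ∘ y) := by
  ext i j
  have half : (gB (G4 δ) (em h3 ∘ y) (em h3 ∘ y)) / 2 = 2 * gB (G4 δ) (em h3 ∘ y) (em h3 ∘ y) := by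
    rw [div_eq_iff h3.two_ne]
    linear_combination -(gB (G4 δ) (em h3 ∘ y) (em h3 ∘ y)) * h3.charThree
  simp only [up_apply, Cert.uM, Matrix.of_apply, sieM, half, Matrix.add_apply, Matrix.sub_apply,
    Matrix.smul_apply, smul_eq_mul, Matrix.one_apply, map_add, map_sub, map_mul, map_ofNat,
    em_b4 h3 hd, em_w4 h3 hd, apply_ite (em h3), map_one, map_zero]
  simp only [cr, G4, Matrix.vecMulVec_apply, Matrix.vecMul_diagonal, Function.comp_apply]
  ring

/-- A valid entry gives a root element of one site. -/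
lemma isSiteU_of_good (h3 : Three F) (hd : ¬ IsSquare δ) {e : Cert.Item} (he : Cert.Good e) :
    IsSiteU δ (site (0 : Fin 2) (up h3 (Cert.ev e.1.1 e.1.2 e.2.1)) : MV F 2) := by
  obtain ⟨eq, hu, huu, huy, hyy⟩ := he
  refine ⟨0, em h3 ∘ e.2.2.1, em h3 ∘ e.2.2.2, ?_, ?_, ?_, ?_, by rw [eq, up_uM h3 hd]⟩
  · intro z
    exact hu (funext fun i => (em h3).injective (by rw [Pi.zero_apply, map_zero]; exact congrFun z i))
  · rw [← em_b4 h3 hd, huu, map_zero]
  · rw [← em_b4 h3 hd, huy, map_zero]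
  · rw [← em_b4 h3 hd]
    exact fun z => hyy ((em h3).injective (by rw [z, map_zero]))

end Cfsg.Agent.MaxSub.OrthFour.HalfThree
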